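import Cfsg.Agent.Bt.Xc
import Cfsg.Agent.Comp.Mat
import Cfsg.Agent.LX.Basic

/-! The abstract part of a triple of subgroups with the indices of the Monster amalgam. -/

set_option autoImplicit false
set_option maxHeartbeats 400000

namespace CF.MonA

open Cfsg Subgroup CF.Loc CF.LX Function

abbrev L3 : Type := Matrix.SpecialLinearGroup (Fin 3) (ZMod 2)

section
variable {G : Type*} [Group G]

theorem max_rel {C L H : Subgroup G} {p : ℕ} (hp : p.Prime) (hi : C.relIndex L = p)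
    (l : L ⊓ C ≤ H) : L ⊓ H ≤ C ∨ L ≤ H := by
  have e := relIndex_mul_relIndex (L ⊓ C) (L ⊓ H) L (le_inf inf_le_left l) inf_le_left
  rw [inf_relIndex_left, inf_relIndex_left, hi] at e
  rcases hp.eq_one_or_self_of_dvd _ (Dvd.intro _ e) with k | k
  · exact .inl ((relIndex_eq_one.1 k).trans inf_le_right)
  · rw [k] at e
    exact .inr (relIndex_eq_one.1 (Nat.eq_of_mul_eq_mul_left hp.pos (e.trans (mul_one _).symm)))

theorem le_of_prime [Finite G] {H M : Subgroup G} [M.Normal] {p : ℕ} (hp : p.Prime) (hi : H.index = p)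
    (hM : ¬ p ∣ Nat.card M) : M ≤ H := by
  rcases max_rel (L := ⊤) (H := H ⊔ M) hp (by rwa [relIndex_top_right])
    (inf_le_right.trans le_sup_left) with k | k
  · exact le_sup_right.trans ((le_inf le_top le_rfl).trans k)
  · refine absurd ?_ hM
    have a := relIndex_mul_index (inf_le_left : H ⊓ M ≤ H)
    have b := relIndex_mul_index (inf_le_right : H ⊓ M ≤ M)
    have c : M.relIndex H = M.index := by rw [← relIndex_sup_right, top_le_iff.1 k, relIndex_top_right]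
    rw [inf_relIndex_left, c, hi, ← b, inf_relIndex_right, mul_comm] at a
    rw [Nat.eq_of_mul_eq_mul_right (Nat.pos_of_ne_zero index_ne_zero_of_finite) a]
    exact relIndex_dvd_card _ _

end

set_option synthInstance.maxSize 4000 in
set_option synthInstance.maxHeartbeats 400000 in
theorem no6 {a b : L3} (h : a ^ 3 = 1) (h1 : a ≠ 1) (k : b * b = 1) (c : a * b = b * a) : b = 1 := by
  have key : ∀ a1 a2 a3 a4 a5 a6 a7 a8 a9 : ZMod 2,
      !![a1, a2, a3; a4, a5, a6; a7, a8, a9] * !![a1, a2, a3; a4, a5, a6; a7, a8, a9] *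
        !![a1, a2, a3; a4, a5, a6; a7, a8, a9] = 1 → !![a1, a2, a3; a4, a5, a6; a7, a8, a9] ≠ 1 →
      ∀ b1 b2 b3 b4 b5 b6 b7 b8 b9 : ZMod 2,
      !![b1, b2, b3; b4, b5, b6; b7, b8, b9] * !![b1, b2, b3; b4, b5, b6; b7, b8, b9] = 1 →
      !![a1, a2, a3; a4, a5, a6; a7, a8, a9] * !![b1, b2, b3; b4, b5, b6; b7, b8, b9] =
        !![b1, b2, b3; b4, b5, b6; b7, b8, b9] * !![a1, a2, a3; a4, a5, a6; a7, a8, a9] →
      !![b1, b2, b3; b4, b5, b6; b7, b8, b9] = 1 := by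
    simp only [Matrix.mul_fin_three, Matrix.one_fin_three, ne_eq, EmbeddingLike.apply_eq_iff_eq,
      Matrix.vecCons_inj, and_true]
    decide +kernel
  rw [pow_three'] at h
  have := key (a.1 0 0) (a.1 0 1) (a.1 0 2) (a.1 1 0) (a.1 1 1) (a.1 1 2) (a.1 2 0) (a.1 2 1) (a.1 2 2)
  rw [← Matrix.eta_fin_three a.1] at this
  have := this (congrArg Subtype.val h) (fun e => h1 (Subtype.ext e)) (b.1 0 0) (b.1 0 1) (b.1 0 2)
    (b.1 1 0) (b.1 1 1) (b.1 1 2) (b.1 2 0) (b.1 2 1) (b.1 2 2)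
  rw [← Matrix.eta_fin_three b.1] at this
  exact Subtype.ext (this (congrArg Subtype.val k) (congrArg Subtype.val c))

theorem no6' {a b : L3} (h : a ^ 3 = 1) (h1 : a ≠ 1) (c : a * b = b * a) {k : ℕ}
    (e : b ^ 2 ^ k = 1) : b = 1 := by
  induction k generalizing b with
  | zero => simpa using e
  | succ k ih =>
    refine no6 h h1 ?_ c
    exact ih (Commute.mul_right c c) (by rw [← sq, ← pow_mul, ← pow_succ', e])

instance : Finite L3 := Nat.finite_of_card_ne_zero (by rw [CF.Bt.card_SL3]; decide)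

theorem four {a : L3} (h : a ^ 3 = 1) (h1 : a ≠ 1) {V : Subgroup L3} (h2 : IsPGroup 2 V)
    (n : ∀ v ∈ V, a * v * a⁻¹ ∈ V) (h0 : V ≠ ⊥) : Nat.card V = 4 := by
  classical
  letI := Fintype.ofFinite V
  let f : V → V := fun v => ⟨a * v * a⁻¹, n v v.2⟩
  haveI : Fact (Nat.Prime 3) := ⟨Nat.prime_three⟩
  have m := Equiv.Perm.card_fixedPoints_modEq (p := 3) (n := 1) (f := f) (funext fun v =>
    Subtype.ext (show a * (a * (a * v * a⁻¹) * a⁻¹) * a⁻¹ = v by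
      calc _ = a ^ 3 * v * (a ^ 3)⁻¹ := by simp only [pow_three]; group
        _ = v := by rw [h]; group))
  have e : Fintype.card (fixedPoints f) = 1 := Fintype.card_eq_one_iff.2
    ⟨⟨1, Subtype.ext (by simp [f])⟩, fun v => Subtype.ext (Subtype.ext (by
      obtain ⟨k, e⟩ := h2 v.1
      exact no6' h h1 (conj_eq_iff.1 (congrArg Subtype.val v.2)) (congrArg Subtype.val e)))⟩
  rw [e, ← Nat.card_eq_fintype_card] at m
  obtain ⟨k, hk⟩ := h2.exists_card_eq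
  have d := card_subgroup_dvd_card V
  rw [CF.Bt.card_SL3, hk] at d
  have l : k ≤ 3 := (Nat.pow_dvd_pow_iff_le_right one_lt_two).1
    ((Nat.Coprime.pow_left k (by norm_num : Nat.Coprime 2 21)).dvd_of_dvd_mul_right d)
  rw [hk] at m ⊢
  have : k ≠ 0 := fun z => h0 (card_eq_one.1 (by rw [hk, z]; rfl))
  interval_cases k
  · exact absurd rfl this
  · exact absurd m (by decide)
  · rfl
  · exact absurd m (by decide)

variable {G : Type*} [Group G]

/-- what is used of the two smaller subgroups -/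
structure Ab (C N L N0 X : Subgroup G) (t a : G) : Prop where
  fN : Finite N
  fL : Finite L
  N0N : N0 ≤ N
  XN : X ≤ N
  N0C : N0 ≤ C
  nN0 : N ≤ 𝐍(N0)
  nX : N ≤ 𝐍(X)
  two : ∀ a ∈ N ⊓ C, ∀ b ∈ N ⊓ C, a * b ∈ N0 ↔ (a ∈ N0 ↔ b ∈ N0)
  ne : ¬ N ⊓ C ≤ N0
  mu : ∃ μ : ↥(N ⊓ C) →* M24, Surjective μ ∧ ∀ g, μ g = 1 ↔ g.1 ∈ X
  E2 : IsPGroup 2 ↥(C ⊓ X)
  tX : t ∈ X
  tL : t ∈ L
  t3 : t ^ 3 = 1
  tC : t ∉ C
  nc : ∀ y ∈ X, (∀ o ∈ N0 ⊓ X, y * o = o * y) → y ∈ N0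
  s3 : ∀ o ∈ N ⊓ C, o ∉ N0 → ∀ g ∈ N, g ∉ C → (o * (g * o * g⁻¹)) ^ 4 ∉ N0
  nQ : ∀ Q : Subgroup G, IsPGroup 2 Q → C ≤ 𝐍(Q) → ¬ C ⊓ X ≤ Q
  iN : C.relIndex N = 3
  aL : a ∈ L
  aC : a ∈ C
  aN : a ∉ N
  a2 : a * a ∉ N
  iC : C.relIndex L = 7
  iL : N.relIndex L = 7
  big : ∀ M, M ≤ L ⊓ C → L ≤ 𝐍(M) → 168 ≤ M.relIndex L

theorem S3_cl : ∀ y t : Equiv.Perm (Fin 3), y ≠ 1 → t ^ 3 = 1 →
    ∃ g, t = y ∨ t = y * y ∨ t = y * (g * y * g⁻¹) := by decide

theorem exists_ab {C N L : Subgroup G} [Finite N] [Finite L] (σ : N →* Equiv.Perm (Fin 3))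
    (μ : N →* M24) (α : L →* L3) (sj : ∀ a b, ∃ n, σ n = a ∧ μ n = b)
    (k2 : IsPGroup 2 ↥(σ.ker ⊓ μ.ker)) (sα : Surjective α) (k7 : ¬ 7 ∣ Nat.card α.ker)
    (k27 : 27 ∣ Nat.card α.ker) (hNC : C.relIndex N = 3) (hLN : N.relIndex L = 7)
    (hLC : C.relIndex L = 7) (hLNC : (N ⊓ C).relIndex L = 21) :
    ∃ t a, Ab C N L (σ.ker.map N.subtype) (μ.ker.map N.subtype) t a := by
  haveI := CF.Comp.Mat.isSimpleGroup_M24
  haveI := CF.Bt.simple_SL3
  have cM := CF.Comp.Mat.card_M24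
  have cL := CF.Bt.card_SL3
  haveI : Finite M24 := Nat.finite_of_card_ne_zero (by rw [cM]; decide)
  haveI : Fact (Nat.Prime 3) := ⟨Nat.prime_three⟩
  have m0 : ∀ {K : Subgroup N} {g : G} (h : g ∈ N), g ∈ K.map N.subtype ↔ ⟨g, h⟩ ∈ K := fun h =>
    ⟨fun ⟨_, a, e⟩ => by obtain rfl := e; exact a, fun a => ⟨_, a, rfl⟩⟩
  have p2 : ∀ n, σ n = 1 → μ n = 1 → ∃ k, n ^ 2 ^ k = 1 := fun n a b =>
    (k2 ⟨n, a, b⟩).imp fun _ e => congrArg Subtype.val e
  have OC : σ.ker ⊓ μ.ker ≤ C.subgroupOf N := le_of_prime Nat.prime_three hNC fun d => by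
    obtain ⟨k, e⟩ := k2.exists_card_eq
    exact absurd (Nat.prime_three.dvd_of_dvd_pow (e ▸ d)) (by decide)
  have N0C : σ.ker ≤ C.subgroupOf N := fun n hn => by
    have : normalClosure {s : M24 | ∃ r, s = r ^ 6} ≤ (C.subgroupOf N ⊓ σ.ker).map μ := by
      refine (closure_le _).2 fun s hs => ?_
      obtain ⟨_, ⟨r, rfl⟩, c⟩ := Group.mem_conjugatesOfSet_iff.1 hs
      obtain ⟨c, e⟩ := isConj_iff.1 c
      rw [← e]
      obtain ⟨m, a, b⟩ := sj 1 (c * r * c⁻¹)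
      exact ⟨m ^ 6, ⟨pow_mem_of_index_ne_zero_of_dvd (by rw [← relIndex, hNC]; decide) m fun j h1 h2 => by
        rw [← relIndex, hNC] at h2; interval_cases j <;> decide, pow_mem a 6⟩, by
          rw [map_pow, b, conj_pow]⟩
    rcases (normalClosure_normal (s := {s : M24 | ∃ r, s = r ^ 6})).eq_bot_or_eq_top with e | e
    · haveI : Fact (Nat.Prime 5) := ⟨by norm_num⟩
      obtain ⟨r, o⟩ := exists_prime_orderOf_dvd_card' (G := M24) 5 (by rw [cM]; decide)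
      have := orderOf_dvd_of_pow_eq_one (mem_bot.1 (e.le (subset_normalClosure ⟨r, rfl⟩)))
      exact absurd (o ▸ this) (by decide)
    · obtain ⟨m, a, b⟩ := this (e.ge (mem_top (μ n)))
      exact ((C.subgroupOf N).mul_mem_cancel_left (inv_mem a.1)).1
        (OC ⟨σ.ker.mul_mem (σ.ker.inv_mem a.2) hn, by simp [b]⟩)
  have sσ : Surjective σ := fun a => (sj a 1).imp fun _ => And.left
  have iσ : σ.ker.index = 6 := by rw [index_ker, MonoidHom.range_eq_top.2 sσ, card_top]; simp [Fintype.card_perm]; rfl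
  have i2 : σ.ker.relIndex (C.subgroupOf N) = 2 := by
    have := relIndex_mul_index N0C
    rw [iσ, ← relIndex, hNC] at this
    omega
  have two : ∀ a b : N, a.1 ∈ C → b.1 ∈ C → (σ (a * b) = 1 ↔ (σ a = 1 ↔ σ b = 1)) := fun a b x y =>
    mul_mem_iff_of_index_two i2 (a := ⟨a, x⟩) (b := ⟨b, y⟩)
  have KC : α.ker ≤ C.subgroupOf L := le_of_prime (by norm_num) hLC k7
  have KN : α.ker ≤ N.subgroupOf L := le_of_prime (by norm_num) hLN k7
  have iα : α.ker.index = 168 := by rw [index_ker, MonoidHom.range_eq_top.2 sα, card_top, cL]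
  have cm : ∀ {H : Subgroup G} {i j : ℕ}, α.ker ≤ H.subgroupOf L → H.relIndex L = i → j * i = 168 →
      Nat.card ((H.subgroupOf L).map α) = j := fun {H i j} a b c => by
    have := card_mul_index ((H.subgroupOf L).map α)
    rw [index_map_eq _ sα a, ← relIndex, b, cL, ← c] at this
    exact Nat.eq_of_mul_eq_mul_right (Nat.pos_of_ne_zero fun z => by simp [z] at c) this
  obtain ⟨t, ⟨tL, tμ⟩, o3⟩ : ∃ t ∈ L.subgroupOf N ⊓ μ.ker, orderOf t = 3 := by
    have a := card_inf_mul_relIndex μ.ker (L.subgroupOf N)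
    have b : Nat.card (L.subgroupOf N) = Nat.card (N.subgroupOf L) := by
      rw [← inf_subgroupOf_right, ← inf_subgroupOf_right N, inf_comm N,
        Nat.card_congr (subgroupOfEquivOfLe inf_le_right).toEquiv,
        Nat.card_congr (subgroupOfEquivOfLe inf_le_left).toEquiv]
    have c := card_mul_index (N.subgroupOf L)
    have d := card_mul_index α.ker
    have e := card_subgroup_dvd_card ((L.subgroupOf N).map μ)
    rw [← relIndex, hLN, ← d, iα] at c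
    rw [relIndex_ker, b] at a
    obtain ⟨u, hu⟩ := k27
    rw [cM] at e
    obtain ⟨t, o⟩ := exists_prime_orderOf_dvd_card' (G := ↥(μ.ker ⊓ L.subgroupOf N)) 3 (by
      by_contra k
      have : 3 ^ 4 ∣ Nat.card ((L.subgroupOf N).map μ) :=
        (Nat.Coprime.pow_left 4 ((Nat.Prime.coprime_iff_not_dvd Nat.prime_three).2 k)).dvd_of_dvd_mul_left
          (a ▸ ⟨8 * u, by omega⟩)
      exact absurd (this.trans e) (by decide))
    exact ⟨t, ⟨t.2.2, t.2.1⟩, by rwa [orderOf_coe]⟩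
  have t3 : t ^ 3 = 1 := o3 ▸ pow_orderOf_eq_one t
  have t3' : t.1 ^ 3 = 1 := congrArg Subtype.val t3
  replace tL : t.1 ∈ L := tL
  replace tμ : μ t = 1 := tμ
  have tσ : σ t ≠ 1 := fun e => by
    obtain ⟨k, e⟩ := p2 t e tμ
    exact absurd (Nat.prime_three.dvd_of_dvd_pow (o3 ▸ orderOf_dvd_of_pow_eq_one e)) (by decide)
  have tC : t.1 ∉ C := fun c => tσ (by
    have a := (two t t c c).2 Iff.rfl
    have b := congrArg σ t3
    rwa [pow_three, map_mul, a, mul_one, map_one] at b)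
  let T := α ⟨t, tL⟩
  have T3 : T ^ 3 = 1 := by
    rw [← map_pow, show (⟨t, tL⟩ : L) ^ 3 = 1 from Subtype.ext t3', map_one]
  have T1 : T ≠ 1 := fun e => tC (KC e)
  let O := σ.ker.map N.subtype ⊓ μ.ker.map N.subtype
  have O2 : ∀ g ∈ O, ∃ k, g ^ 2 ^ k = 1 := by
    rintro _ ⟨⟨g, a, rfl⟩, b⟩
    exact (p2 g a ((m0 g.2).1 b)).imp fun _ e => congrArg Subtype.val e
  obtain ⟨c, hc, c1⟩ : ∃ c ∈ O.subgroupOf L, α c ≠ 1 := by
    obtain ⟨⟨_, u, ⟨u', hu, eu⟩, rfl⟩, o⟩ := exists_prime_orderOf_dvd_card'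
      (G := ((σ.ker.map N.subtype).subgroupOf L).map α) 2 (by
        by_contra k
        have a := card_mul_index (((σ.ker.map N.subtype).subgroupOf L).map α)
        have b := index_map_dvd ((σ.ker.map N.subtype).subgroupOf L) sα
        have c := relIndex_inf_mul_relIndex (σ.ker.map N.subtype) N L
        have d := relIndex_dvd_index_of_normal σ.ker (L.subgroupOf N)
        rw [inf_eq_left.2 (map_subtype_le σ.ker), hLN] at c
        rw [← relIndex, ← c] at b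
        rw [iσ, ← relIndex_map_map_of_injective _ _ (subtype_injective N), subgroupOf_map_subtype,
          inf_comm] at d
        have : 2 ^ 3 ∣ (((σ.ker.map N.subtype).subgroupOf L).map α).index :=
          (Nat.Coprime.pow_left 3 ((Nat.Prime.coprime_iff_not_dvd Nat.prime_two).2 k)).dvd_of_dvd_mul_left
            (by rw [a, cL]; decide)
        exact absurd ((this.trans b).trans (Nat.mul_dvd_mul_right d 7)) (by decide))
    rw [← orderOf_coe] at o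
    replace o : orderOf (α u) = 2 := o
    replace eu : u'.1 = u.1 := eu
    refine ⟨⟨t, tL⟩ * u * ⟨t, tL⟩⁻¹ * u⁻¹, ⟨⟨t * u' * t⁻¹ * u'⁻¹, ?_, by simp [← eu]⟩,
      ⟨t * u' * t⁻¹ * u'⁻¹, ?_, by simp [← eu]⟩⟩, fun e => ?_⟩
    · simp [show σ u' = 1 from hu]
    · simp [show μ t = 1 from tμ]
    · rw [map_mul, map_mul, map_mul, map_inv, map_inv, mul_inv_eq_one, conj_eq_iff] at e
      have := no6 T3 T1 ((sq _).symm.trans (orderOf_dvd_iff_pow_eq_one.1 o.dvd)) e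
      rw [this, orderOf_one] at o
      exact absurd o (by decide)
  have nO : ∀ g ∈ N, ∀ o ∈ O, g * o * g⁻¹ ∈ O := by
    rintro g hg _ ⟨⟨o, a, rfl⟩, b⟩
    exact ⟨⟨_, Normal.conj_mem inferInstance _ a ⟨g, hg⟩, rfl⟩,
      ⟨_, Normal.conj_mem inferInstance _ ((m0 o.2).1 b) ⟨g, hg⟩, rfl⟩⟩
  obtain ⟨⟨_, a, aC, rfl⟩, oa⟩ := exists_prime_orderOf_dvd_card' (G := (C.subgroupOf L).map α) 3
    (by rw [cm (j := 24) KC hLC rfl]; decide)
  rw [← orderOf_coe] at oa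
  replace oa : orderOf (α a) = 3 := oa
  have a3 : α a ^ 3 = 1 := orderOf_dvd_iff_pow_eq_one.1 oa.dvd
  have an : ∀ i, (a ^ i).1 ∈ N → 3 ∣ i := fun i hi => by
    have d := orderOf_dvd_natCard (G := ((N ⊓ C).subgroupOf L).map α)
      ⟨_, a ^ i, ⟨hi, pow_mem aC i⟩, rfl⟩
    rw [cm (j := 8) (H := N ⊓ C) (le_inf KN KC) hLNC rfl, ← orderOf_coe] at d
    replace d : orderOf (α (a ^ i)) ∣ 8 := d
    have e : α (a ^ i) ^ 3 = 1 := by rw [map_pow, ← pow_mul, mul_comm, pow_mul, a3, one_pow]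
    have := (Nat.Coprime.eq_one_of_dvd (Nat.Coprime.coprime_dvd_left d (by norm_num))
      (orderOf_dvd_of_pow_eq_one e))
    rw [orderOf_eq_one_iff, map_pow] at this
    exact oa.symm.dvd.trans (orderOf_dvd_of_pow_eq_one this)
  have img : ∀ Q : Subgroup G, (∀ g ∈ Q, ∃ k, g ^ 2 ^ k = 1) → IsPGroup 2 ((Q.subgroupOf L).map α) := by
    rintro Q h ⟨_, g, hg, rfl⟩
    exact (h g hg).imp fun k e => Subtype.ext (by
      change α g ^ _ = 1
      rw [← map_pow, show g ^ 2 ^ k = 1 from Subtype.ext e, map_one])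
  have nim : ∀ (Q : Subgroup G) (g : L), (∀ q ∈ Q, g * q * (g : G)⁻¹ ∈ Q) →
      ∀ v ∈ (Q.subgroupOf L).map α, α g * v * (α g)⁻¹ ∈ (Q.subgroupOf L).map α := by
    rintro Q g h _ ⟨q, hq, rfl⟩
    exact ⟨g * q * g⁻¹, h q hq, by simp⟩
  refine ⟨t, a, inferInstance, inferInstance, map_subtype_le _, map_subtype_le _, ?_, le_normalizer_map_subtype _,
    le_normalizer_map_subtype _, fun x hx y hy => ?_, fun k => ?_, ?_, ?_, ⟨t, tμ, rfl⟩, tL,
    t3', tC, ?_, fun o ho o0 g hg gC k => ?_, fun Q h2 hn k => ?_, hNC, a.2, aC,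
    fun k => absurd (an 1 (by simpa using k)) (by decide),
    fun k => absurd (an 2 (by simpa [sq] using k)) (by decide), hLC, hLN, fun M hM hn => ?_⟩
  · rintro _ ⟨g, hg, rfl⟩
    exact N0C hg
  · rw [m0 (mul_mem hx.1 hy.1), m0 hx.1, m0 hy.1]
    exact two ⟨x, hx.1⟩ ⟨y, hy.1⟩ hx.2 hy.2
  · rw [relIndex_eq_one.2 fun g hg => (m0 g.2).1 (k ⟨g.2, hg⟩)] at i2
    exact absurd i2 (by decide)
  · refine ⟨μ.comp (inclusion inf_le_left), fun s => ?_, fun g => (m0 (K := μ.ker) g.2.1).symm⟩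
    obtain ⟨n, a, b⟩ := sj 1 s
    exact ⟨⟨n, n.2, N0C a⟩, b⟩
  · rintro ⟨_, x, g, y, rfl⟩
    obtain ⟨k, e⟩ := p2 (g * g) ((two g g x x).2 Iff.rfl) (mul_mem y y)
    exact ⟨k + 1, Subtype.ext (by
      rw [← sq, ← pow_mul, ← pow_succ'] at e
      exact congrArg N.subtype e)⟩
  · rintro _ ⟨y, hy, rfl⟩ h
    by_contra y1
    let Z : Subgroup N := μ.ker ⊓ (𝐂(O)).subgroupOf N
    have yZ : y ∈ Z := ⟨hy, fun o ho => (h o ho).symm⟩
    have cZ : ∀ g : N, g * y * g⁻¹ ∈ Z := fun g => ⟨Normal.conj_mem inferInstance _ hy g, fun o ho => by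
      have := h _ (nO _ (inv_mem g.2) o ho)
      calc _ = g.1 * (g.1⁻¹ * o * g.1⁻¹⁻¹ * y.1) * g.1⁻¹ := by simp [mul_assoc]
        _ = _ := by rw [← show _ = _ * y.1 from this]; simp [mul_assoc]⟩
    obtain ⟨w, wZ, ew⟩ : ∃ w ∈ Z, σ w = σ t := by
      obtain ⟨g, e | e | e⟩ := S3_cl (σ y) (σ t) (fun e => y1 ⟨y, e, rfl⟩) (by rw [← map_pow, t3, map_one])
      · exact ⟨y, yZ, e.symm⟩
      · exact ⟨y * y, mul_mem yZ yZ, by rw [e, map_mul]⟩
      · obtain ⟨g, rfl⟩ := sσ g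
        exact ⟨_, mul_mem yZ (cZ g), by simp [e]⟩
    have oO : ((w⁻¹ * t : N) : G) ∈ O := ⟨⟨w⁻¹ * t, by simp [ew], rfl⟩, ⟨_, μ.ker.mul_mem (μ.ker.inv_mem wZ.1) tμ, rfl⟩⟩
    have cw : Commute (w : G) (w⁻¹ * t : N) := (wZ.2 _ oO).symm
    have e3 : ((w⁻¹ * t : N) : G) ^ 3 ∈ 𝐂(O) := by
      have := cw.mul_pow 3
      rw [show (w : G) * (w⁻¹ * t : N) = t by simp, t3',
        eq_comm, mul_eq_one_iff_inv_eq] at this
      exact this ▸ inv_mem (pow_mem wZ.2 3)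
    obtain ⟨k, e⟩ := O2 _ oO
    have e1 : ((w⁻¹ * t : N) : G) ∈ 𝐂(O) := zpowers_le.2 e3 (mem_zpowers_pow_iff.2
      (Nat.Coprime.coprime_dvd_right (orderOf_dvd_of_pow_eq_one e)
        (Nat.Coprime.pow_right k (by norm_num))))
    have e2 : (t : G) ∈ 𝐂(O) := by simpa using mul_mem (show (w : G) ∈ 𝐂(O) from wZ.2) e1
    obtain ⟨k, e⟩ := O2 _ hc
    refine c1 (no6' T3 T1 (k := k) ?_ ?_)
    · rw [← map_mul, ← map_mul]
      exact congrArg α (Subtype.ext (e2 _ hc).symm)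
    · rw [← map_pow, show c ^ 2 ^ k = 1 from Subtype.ext e, map_one]
  · lift o to N using ho.1
    lift g to N using hg
    refine (by decide +kernel : ∀ x y : Equiv.Perm (Fin 3), x ≠ 1 → x * x = 1 → y ≠ 1 → x⁻¹ * y ≠ 1 →
      (x * (y * x * y⁻¹)) ^ 4 ≠ 1) (σ o) (σ g) (fun e => o0 ⟨o, e, rfl⟩)
      ((map_mul _ _ _).symm.trans ((two o o ho.2 ho.2).2 Iff.rfl)) (fun e => gC (N0C e))
      (fun e => gC (((C.subgroupOf N).mul_mem_cancel_left (inv_mem ho.2)).1 (N0C (by simpa using e)))) ?_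
    simpa only [MonoidHom.mem_ker, map_pow, map_mul, map_inv] using
      (show (o * (g * o * g⁻¹)) ^ 4 ∈ σ.ker from (m0 ((o * (g * o * g⁻¹)) ^ 4).2).1 k)
  · have l : (O.subgroupOf L).map α ≤ (Q.subgroupOf L).map α := map_mono fun g hg => k ⟨by
      obtain ⟨u, a, e⟩ := hg.1
      exact e ▸ N0C a, hg.2⟩
    have b : (O.subgroupOf L).map α ≠ ⊥ := fun e => c1 (mem_bot.1 (e.le ⟨c, hc, rfl⟩))
    have nQ : ∀ g : L, g.1 ∈ C → ∀ q ∈ Q, g * q * (g : G)⁻¹ ∈ Q := fun g hg q =>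
      (mem_normalizer_iff.1 (hn hg) q).1
    have c4 := four T3 T1 (img O O2) (nim O _ (nO _ t.2)) b
    have e := eq_of_le_of_card_ge l (c4 ▸ (four a3 (fun e => by simp [e] at oa)
      (img Q fun g hg => (h2 ⟨g, hg⟩).imp fun _ e => congrArg Subtype.val e) (nim Q a (nQ a aC))
      fun e => b (le_bot_iff.1 (e ▸ l))).le)
    have : L ≤ ((𝐍((O.subgroupOf L).map α)).comap α).map L.subtype :=
      (max_rel (H := ((𝐍((O.subgroupOf L).map α)).comap α).map L.subtype) (by norm_num) hLC fun g hg => ⟨⟨g, hg.1⟩, mem_normalizer_fintype (by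
        rw [e]; exact nim Q _ (nQ _ hg.2)), rfl⟩).resolve_left fun k => tC
        (k ⟨tL, ⟨t, tL⟩, mem_normalizer_fintype (nim O _ (nO _ t.2)), rfl⟩)
    have nm : ((O.subgroupOf L).map α).Normal := normalizer_eq_top_iff.1 (eq_top_iff.2 fun s _ => by
      obtain ⟨g, rfl⟩ := sα s
      obtain ⟨g', a, b⟩ := this g.2
      exact (Subtype.ext b : g' = g) ▸ a)
    rcases nm.eq_bot_or_eq_top with e | e
    · exact b e
    · rw [e, card_top, cL] at c4
      exact absurd c4 (by decide)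
  · haveI : (M.subgroupOf L).Normal := (normal_subgroupOf_iff_le_normalizer (hM.trans inf_le_left)).2 hn
    rcases (this.map α sα).eq_bot_or_eq_top with e | e
    · exact iα ▸ Nat.le_of_dvd (Nat.pos_of_ne_zero index_ne_zero_of_finite)
        (index_dvd_of_le ((Subgroup.map_eq_bot_iff _).1 e))
    · have := card_le_of_le (e ▸ map_mono fun g hg => (hM hg).2 :
        (⊤ : Subgroup L3) ≤ (C.subgroupOf L).map α)
      rw [card_top, cL, cm (j := 24) KC hLC rfl] at this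
      omega

end CF.MonA
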