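import Cfsg.Agent.MonU.A3

/-! The subgroups `2^k . M24` of `Co1`, and invariant groups of labels. -/

set_option autoImplicit false
set_option maxHeartbeats 400000
set_option maxRecDepth 100000

namespace CF.MonA

open Cfsg Subgroup CF.Leech CF.Mon CF.Mon.L CF.Mon.Lab CF.Known.Mon MulAction CF.LX CF.Loc
open CF.Mon.G hiding AS
open CF.Even Function Spor CF.MonU
open CF.XT.Co hiding a v M F σ
open scoped commutatorElement Pointwise

theorem cyc23 {σ : Equiv.Perm Pt} (o : orderOf σ = 23) : ∃ i0, (∀ i, σ i = i ↔ i = i0) ∧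
    ∀ f : Pt → ℤ, (∀ i, f (σ i) = f i) → ∀ i j, i ≠ i0 → j ≠ i0 → f i = f j := by
  have c := Equiv.Perm.isCycle_of_prime_order' (σ := σ) (by rw [o]; norm_num) (by rw [o, card_pts]; norm_num)
  obtain ⟨i0, e⟩ := Finset.card_eq_one.1 (show σ.supportᶜ.card = 1 by
    rw [Finset.card_compl, ← c.orderOf, o, card_pts])
  have k : ∀ i, σ i = i ↔ i = i0 := fun i => by
    rw [← Finset.mem_singleton (a := i0), ← e, Finset.mem_compl, Equiv.Perm.notMem_support]
  refine ⟨i0, k, fun f h i j a b => ?_⟩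
  obtain ⟨n, rfl⟩ := c.exists_pow_eq (mt (k i).1 a) (mt (k j).1 b)
  clear b
  induction n with
  | zero => rfl
  | succ n ih => rw [pow_succ', Equiv.Perm.mul_apply, h, ih]

theorem sum23 {i0 j : Pt} (f : Pt → ℤ) (h : ∀ i, i ≠ i0 → f i = f j) : ∑ i, f i = f i0 + 23 * f j := by
  rw [← Finset.add_sum_erase _ _ (Finset.mem_univ i0),
    Finset.sum_congr rfl fun i hi => h i (Finset.ne_of_mem_erase hi), Finset.sum_const,
    Finset.card_erase_of_mem (Finset.mem_univ _), Finset.card_univ, card_pts]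
  simp

theorem inv23 {σ : Equiv.Perm Pt} (o : orderOf σ = 23) {c : Finset Pt} (h : ∀ i, σ i ∈ c ↔ i ∈ c)
    (e : 2 ∣ c.card) : c = ∅ ∨ c = Finset.univ := by
  obtain ⟨i0, -, k⟩ := cyc23 o
  obtain ⟨j, hj⟩ := exists_ne i0
  have := sum23 (ind c) fun i hi => k _ (fun i => by simp only [ind, h]) i j hi hj
  rw [sum_ind] at this
  rw [← Finset.card_eq_zero, ← Finset.card_eq_iff_eq_univ, card_pts]
  have a := ind_cases c i0
  have b := ind_cases c j
  omega

theorem sq23 {a b : ℤ} (e : a ^ 2 + 23 * b ^ 2 = 64) : b = 0 ∧ (a = 8 ∨ a = -8) := by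
  have : -2 < b ∧ b < 2 ∧ -9 < a ∧ a < 9 := by refine ⟨?_, ?_, ?_, ?_⟩ <;> nlinarith
  obtain ⟨_, _, _, _⟩ := this
  interval_cases b <;> interval_cases a <;> simp_all

theorem mk_NS {g : Co0} : XT.Co.mk g ∈ NS ↔ g ∈ Mon := ⟨fun ⟨_, h, e⟩ => by
  rcases mk_eq.1 e.symm with e | e <;> rw [e]
  exacts [h, mul_mem negCo_mem_Mon h], mem_map_of_mem _⟩

theorem mk_AS {g : Co0} : XT.Co.mk g ∈ AS ↔ g ∈ Sg := ⟨fun ⟨_, h, e⟩ => by
  rcases mk_eq.1 e.symm with e | e <;> rw [e]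
  exacts [h, mul_mem negCo_mem_Sg h], mem_map_of_mem _⟩

theorem no46 {x s : S} (o : orderOf s = 23) (h : x * x = 1) (c : x * s = s * x) : x = 1 := by
  obtain ⟨y, -, σ, e⟩ := Bt.exists_conj_mem (P := pm.range) (H := ⊤) le_top (p := 23) (by norm_num)
    (m := 2 ^ 11 * 8292375) (by
      rw [card_top, card_Co1, ← Nat.card_congr (MonoidHom.ofInjective pm_inj).toEquiv,
        Comp.Mat.card_M24]; norm_num) (by norm_num) (mem_top s) (a := 1)
    (by rw [pow_one, ← o, pow_orderOf_eq_one])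
  have o1 : orderOf σ = 23 := by rw [← orderOf_injective pm pm_inj, e, ← o, ← MulAut.conj_apply, MulEquiv.orderOf_eq]
  have o2 : orderOf σ.1 = 23 := by rw [orderOf_coe, o1]
  obtain ⟨g, hg⟩ := mk_surj (y * x * y⁻¹)
  suffices XT.Co.mk g = 1 by simpa [hg] using this
  have gg : g * g = 1 ∨ g * g = negCo := (mk_one _).1 (by rw [map_mul, hg, ← conj_mul_conj, h]; simp)
  have cm : g * permHom σ = permHom σ * g := by
    rcases mk_eq.1 (show XT.Co.mk (g * permHom σ * g⁻¹) = XT.Co.mk (permHom σ) by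
      rw [map_mul, map_mul, map_inv, conj_eq_iff, hg]
      change _ * pm σ = pm σ * _
      rw [e, ← conj_mul_conj, ← conj_mul_conj, c]) with k | k
    · exact conj_eq_iff.1 k
    · have := congrArg (· ^ 23) k
      simp only [conj_pow, (show Commute negCo (permHom σ) from (negCo_comm _).symm).mul_pow, ← map_pow,
        ← o1, pow_orderOf_eq_one] at this
      rw [o1, show 23 = 2 * 11 + 1 from rfl, pow_succ, pow_mul, sq, negCo_mul_self] at this
      exact absurd (by simpa using this.symm) negCo_ne_one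
  obtain ⟨i0, f0, k⟩ := cyc23 o2
  obtain ⟨j, hj⟩ := exists_ne i0
  have u : permHom σ • g • e8 i0 = g • e8 i0 := by
    rw [← mul_smul, ← cm, mul_smul]
    exact congrArg _ ((mono_e8 σ.2 empty_mem_CS i0).trans (by simp [(f0 i0).2 rfl]))
  have v := fun i hi => k (g • e8 i0 : LL) (fun i => by
    conv_lhs => rw [← u, permHom_smul, Equiv.symm_apply_apply]) i j hi hj
  have n : ∑ i, ((g • e8 i0 : LL) : V) i ^ 2 = 64 := (co_nm g _).trans (nm_e8 i0)
  rw [sum23 (j := j) (i0 := i0) _ fun i hi => by rw [v i hi]] at n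
  obtain ⟨τ, d, hτ, hd, rfl⟩ := mem_Mon.1 (mem_Mon_of (g := g) (e8_mem_stdCross i0) (mem_stdCross.2 ⟨i0, by
    obtain ⟨b, a⟩ := sq23 n
    generalize g • e8 i0 = w at a b v
    refine a.imp (fun a => LL.ext fun i => ?_) fun a => LL.ext fun i => ?_ <;> by_cases e : i = i0
    · simp [e, a, e8_apply]
    · simp [e, v i e, b, e8_apply]
    · simp [e, a, e8_apply]
    · simp [e, v i e, b, e8_apply]⟩))
  change _ * mono σ.2 empty_mem_CS = mono σ.2 empty_mem_CS * _ at cm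
  rw [mono_mul, mono_mul] at cm
  obtain ⟨c1, c2⟩ := mono_inj _ _ _ _ cm
  have c3 : ∀ i, τ (σ.1 i) = σ.1 (τ i) := fun i => congrArg (· i) c1
  obtain rfl : τ = 1 := by
    rw [mono_mul, ← mono_one, ← mono_neg] at gg
    rcases inv23 o2 (c := τ.support) (fun i => by simp [c3]) (Equiv.Perm.two_dvd_card_support (by
      rw [sq]; exact gg.elim (fun e => (mono_inj _ _ _ _ e).1) fun e => (mono_inj _ _ _ _ e).1)) with e | e
    · exact Equiv.Perm.support_eq_empty_iff.1 e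
    · exact absurd ((f0 _).1 (by rw [← c3, (f0 i0).2 rfl])) (Equiv.Perm.mem_support.1 (e ▸ Finset.mem_univ i0))
  rw [Finset.smul_finset_empty, sd_empty, symmDiff_comm, sd_empty] at c2
  rcases inv23 o2 (c := d) (fun i => by nth_rw 1 [c2]; exact apply_mem_smul_finset)
    ((by norm_num : 2 ∣ 4).trans (four_dvd_card hd)) with rfl | rfl
  exacts [(mk_one _).2 (.inl mono_one), (mk_one _).2 (.inr mono_neg)]

theorem norm_AS : 𝐍(AS) ≤ NS := fun n hn => by
  obtain ⟨g, rfl⟩ := mk_surj n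
  refine mk_NS.2 (smul_w8_iff.1 ((fix_eps fun c hc => ?_).resolve_left fun e => ?_))
  · have : g⁻¹ * eps hc * g ∈ Mon := mk_NS.1 (AS_le (by
      simpa [eps] using (mem_normalizer_iff.1 (inv_mem hn) _).1 (mk_AS.2 (mem_Sg.2 ⟨c, hc, rfl⟩))))
    rw [← mul_smul, show eps hc * g = g * (g⁻¹ * eps hc * g) by group, mul_smul, smul_w8_iff.2 this]
  · rw [smul_eq_zero_iff_eq] at e
    exact red_ne_zero (ne_zero_of_nm (nm_e8 none) (by norm_num)) (nm_e8 none).le e

theorem exists_NS {A R : Subgroup S} (μ : A →* M24) (s : Surjective μ) (k : ∀ g, μ g = 1 ↔ g.1 ∈ R)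
    (l : R ≤ A) (h2 : IsPGroup 2 R) (n : R ≠ ⊥) : ∃ g, cj[g] A = NS ∧ cj[g] R = AS := by
  classical
  have nR : ∀ a ∈ A, ∀ r ∈ R, a * r * a⁻¹ ∈ R := fun a ha r hr =>
    (k (⟨a, ha⟩ * ⟨r, l hr⟩ * ⟨a, ha⟩⁻¹)).1 (by rw [map_mul, map_mul, (k ⟨r, l hr⟩).2 hr]; simp)
  let X : Subgroup S :=
    { carrier := {x | x ∈ R ∧ x * x = 1 ∧ ∀ r ∈ R, x * r = r * x}
      one_mem' := ⟨one_mem _, one_mul _, by simp⟩
      mul_mem' := fun {a b} x y => ⟨mul_mem x.1 y.1, by
        rw [mul_assoc, ← mul_assoc b, y.2.2 a x.1, mul_assoc, y.2.1, mul_one, x.2.1], fun r hr => by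
        rw [mul_assoc, y.2.2 r hr, ← mul_assoc, x.2.2 r hr, mul_assoc]⟩
      inv_mem' := fun {a} x => by rwa [inv_eq_of_mul_eq_one_right x.2.1] }
  have nX : ∀ a ∈ A, ∀ x ∈ X, a * x * a⁻¹ ∈ X := fun a ha x hx => ⟨nR a ha x hx.1, by
    rw [← conj_mul_conj, hx.2.1]; simp, fun r hr => by
      have := hx.2.2 _ (nR _ (inv_mem ha) r hr)
      calc _ = a * (x * (a⁻¹ * r * a⁻¹⁻¹)) * a⁻¹ := by group
        _ = _ := by rw [this]; group⟩
  have cA : Nat.card A = 244823040 * Nat.card R := by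
    rw [card_eq_card_quotient_mul_card_subgroup μ.ker,
      Nat.card_congr (QuotientGroup.quotientKerEquivOfSurjective _ s).toEquiv, Comp.Mat.card_M24,
      show μ.ker = R.subgroupOf A from Subgroup.ext k, Nat.card_congr (subgroupOfEquivOfLe l).toEquiv]
  haveI : Fact (Nat.Prime 23) := ⟨by norm_num⟩
  obtain ⟨a, o⟩ := exists_prime_orderOf_dvd_card' (G := A) 23 (cA ▸ Dvd.dvd.mul_right (by norm_num) _)
  rw [← orderOf_coe] at o
  letI := Fintype.ofFinite X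
  let f : X → X := fun v => ⟨a * v * (a : S)⁻¹, nX a a.2 v v.2⟩
  have m := Equiv.Perm.card_fixedPoints_modEq (p := 23) (n := 1) (f := f) (by
    have : ∀ n v, (f^[n] v : S) = a ^ n * v * ((a : S) ^ n)⁻¹ := fun n v => by
      induction n with
      | zero => simp
      | succ n ih => rw [iterate_succ_apply', pow_succ']; simp only [f, ih]; group
    exact funext fun v => Subtype.ext ((this _ v).trans (by rw [pow_one, ← o, pow_orderOf_eq_one]; simp; rfl)))
  have e : Fintype.card (fixedPoints f) = 1 := Fintype.card_eq_one_iff.2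
    ⟨⟨1, Subtype.ext (by simp [f])⟩, fun v => Subtype.ext (Subtype.ext
      (no46 o v.1.2.2.1 (conj_eq_iff.1 (congrArg Subtype.val v.2)).symm))⟩
  rw [e, ← Nat.card_eq_fintype_card] at m
  obtain ⟨j, hj⟩ := (h2.to_le (fun _ h => h.1 : X ≤ R)).exists_card_eq
  have c11 : 2 ^ 11 ≤ Nat.card X := by
    rw [hj] at m ⊢
    refine Nat.pow_le_pow_right two_pos (not_lt.1 fun h => ?_)
    have : j ≠ 0 := fun e => by
      haveI := (Subgroup.nontrivial_iff_ne_bot R).2 n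
      haveI := h2.center_nontrivial
      obtain ⟨i, a, b⟩ := (h2.to_subgroup (center R)).nontrivial_iff_card.1 inferInstance
      obtain ⟨x, o⟩ := exists_prime_orderOf_dvd_card' (G := center R) 2 (b ▸ dvd_pow_self 2 a.ne')
      have : x.1.1 ∈ X := ⟨x.1.2, congrArg (fun y : center R => y.1.1) (show x * x = 1 by
        rw [← sq, ← o, pow_orderOf_eq_one]), fun r hr =>
          congrArg Subtype.val (mem_center_iff.1 x.2 ⟨r, hr⟩).symm⟩
      rw [card_eq_one.1 (hj.trans (by rw [e]; rfl)), mem_bot] at this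
      rw [show x = 1 from Subtype.ext (Subtype.ext this), orderOf_one] at o
      exact absurd o (by decide)
    interval_cases j <;> simp_all [Nat.ModEq]
  obtain ⟨g, e⟩ := jA (X := X) (fun _ h => h.2.1) c11
  have l1 : cj[g] A ≤ NS := le_trans (by
    rw [← e, ← cj_normalizer]
    exact cj_mono g fun a ha => mem_normalizer_fintype (nX a ha)) norm_AS
  have l2 : AS ≤ cj[g] R := e ▸ cj_mono g fun _ h => h.1
  have a1 := card_le_of_le l1
  have a2 := card_le_of_le l2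
  rw [card_cj, card_NS] at a1
  rw [card_cj, card_AS] at a2
  exact ⟨g, eq_of_le_of_card_ge l1 (by rw [card_cj, card_NS]; omega),
    (eq_of_le_of_card_ge l2 (by rw [card_cj, card_AS]; omega)).symm⟩

theorem AS_le_of {K : Subgroup S} (n : ∀ σ, ∀ k ∈ K, pm σ * k * (pm σ)⁻¹ ∈ K) {x : S} (a : x ∈ AS)
    (b : x ∈ K) (c : x ≠ 1) : AS ≤ K := fun y hy => by
  obtain ⟨c, hc, rfl⟩ := mem_AS.1 a
  obtain ⟨d, hd, rfl⟩ := mem_AS.1 hy
  exact (Sm.code (F := {c | c ∈ CS ∧ sg c ∈ K}) ⟨fun s hs t ht => ⟨symmDiff_mem_CS hs.1 ht.1,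
    sg_mul hs.1 ht.1 ▸ mul_mem hs.2 ht.2⟩, fun g hg s hs => ⟨smul_mem_CS hg hs.1,
      sg_conj ⟨g, hg⟩ hs.1 ▸ n _ _ hs.2⟩⟩ hc ⟨hc, b⟩ (fun e => c (e ▸ sg_empty)) (fun e => c (by
        rw [e, ← sg_empty]; exact (sg_inj univ_mem_CS empty_mem_CS).2 (.inr (by simp)))) hd).2

theorem NS_perf {K : Subgroup S} (h : ∀ a ∈ NS, ∀ b ∈ NS, a * b * a⁻¹ * b⁻¹ ∈ K) : NS ≤ K := by
  have k : ∀ σ, pm σ ∈ K := fun σ => by
    haveI := Comp.Mat.isSimpleGroup_M24
    rcases (commutator_normal ⊤ ⊤ : (_root_.commutator M24).Normal).eq_bot_or_eq_top with e | e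
    · letI : CommGroup M24 := { (inferInstance : Group M24) with
        mul_comm := fun a b => commutatorElement_eq_one_iff_mul_comm.1
          (mem_bot.1 (e.le (commutator_mem_commutator (mem_top _) (mem_top _)))) }
      have := (IsSimpleGroup.prime_card (α := M24)).eq_one_or_self_of_dvd 2
      rw [Comp.Mat.card_M24] at this
      omega
    · exact (commutator_le.2 fun a _ b _ => by
        simpa [commutatorElement_def] using h _ (pm_mem a) _ (pm_mem b) : ⁅⊤, ⊤⁆ ≤ K.comap pm) (e.ge trivial)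
  intro x hx
  obtain ⟨s, hs, σ, rfl⟩ := NS_dec hx
  obtain ⟨τ, e⟩ := exists_oct (oct_mask (a := 5279) (by decide +kernel))
  have m := AS_le (sg_mem o1_CS)
  refine mul_mem (AS_le_of (fun σ y hy => mul_mem (mul_mem (k σ) hy) (inv_mem (k σ)))
    (mul_mem (AS_conj (pm_mem τ) (sg_mem o1_CS)) (inv_mem (sg_mem o1_CS))) (h _ (pm_mem τ) _ m) ?_ hs) (k σ)
  rw [Ne, mul_inv_eq_one, sg_conj _ o1_CS, sg_inj (smul_mem_CS τ.2 o1_CS) o1_CS, e]
  decide +kernel

/-! ### labels -/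

theorem NL_eqv (l : List ℕ) (x : ℕ) : NL l (lab x) ≈ₗ lab (sx l x) := by
  induction l with
  | nil => exact (show lab 0 = 1 by decide +kernel) ▸ Eqv.refl (lab 0)
  | cons i l ih =>
    rw [← lam_eq_iff] at ih ⊢
    rw [NL_cons, lam_mul, ih, ← prodE_rep, ← lab_evL (pE_rep i), ← lam_lab_xor]
    rfl

theorem NL_mul' (l : List ℕ) (p q : Lab) : NL l (p * q) ≈ₗ NL l p * NL l q := by
  induction l with
  | nil => exact ⟨by simp [NL], by simp [NL]⟩
  | cons i l ih =>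
    rw [← lam_eq_iff] at ih ⊢
    simp only [NL_cons, lam_mul, ih, smul_mul']
    abel

/-- an odd label fixed by `pE` -/
def oL : Lab := lab 4675584

theorem NL_all (p : Lab) : ∃ j, (NL (List.range 23) p).a = p.a 11 • oL.a ∧
    (NL (List.range 23) p).b = p.a 11 • oL.b + Pi.single 11 j := by
  have b : ∀ k < 24, ∃ j, (lab (sx (List.range 23) (2 ^ k))).a = (lab (2 ^ k)).a 11 • oL.a ∧
      (lab (sx (List.range 23) (2 ^ k))).b = (lab (2 ^ k)).a 11 • oL.b + Pi.single 11 j := by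
    decide +kernel
  have c : ∀ k < 24, ∃ j, (NL (List.range 23) (lab (2 ^ k))).a = (lab (2 ^ k)).a 11 • oL.a ∧
      (NL (List.range 23) (lab (2 ^ k))).b = (lab (2 ^ k)).a 11 • oL.b + Pi.single 11 j := fun k hk => by
    rw [(NL_eqv _ _).1, (NL_eqv _ _).2]; exact b k hk
  refine Lab.induction (P := fun p => ∃ j, (NL (List.range 23) p).a = p.a 11 • oL.a ∧
    (NL (List.range 23) p).b = p.a 11 • oL.b + Pi.single 11 j) ⟨0, ?_⟩
    (fun k => lab_X k ▸ c k (by omega)) (fun k => lab_Z k ▸ c (12 + k) (by omega))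
    (fun p q ⟨i, a, b⟩ ⟨j, c, d⟩ => ⟨i + j, ?_⟩) p
  · rw [NL_fix _ xc_R2]; decide +kernel
  · rw [(NL_mul' _ p q).1, (NL_mul' _ p q).2, mul_a, mul_b, a, b, c, d, mul_a, Pi.add_apply, add_smul,
      add_smul, Pi.single_add]
    exact ⟨rfl, by abel⟩

theorem mem_R2_of {q : Lab} {j : ZMod 2} (a : q.a = 0) (b : q.b = Pi.single 11 j) : q ∈ R2 := by
  rw [show q = ⟨0, Pi.single 11 j, q.s⟩ from Lab.ext a b rfl]
  generalize q.s = s
  change _ = 1 ∨ _ = xc ∨ _ = Y0 ∨ _ = Z 11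
  clear a b
  revert j s
  decide +kernel

theorem norm_even {p : Lab} (h : p.a 11 = 0) : NL (List.range 23) p ∈ R2 := by
  obtain ⟨j, a, b⟩ := NL_all p
  exact mem_R2_of (j := j) (by simp [a, h]) (by simp [b, h])

theorem norm_odd {p : Lab} (h : p.a 11 ≠ 0) : ∃ v ∈ R2, NL (List.range 23) p = oL * v := by
  obtain ⟨j, a, b⟩ := NL_all p
  rw [(z2_cases _).resolve_left h, one_smul] at a b
  exact ⟨oL⁻¹ * _, mem_R2_of (j := j) (by simp [a, ix_add_self])
    (by rw [mul_b, b, inv_b, ← add_assoc, ix_add_self, zero_add]), (mul_inv_cancel_left _ _).symm⟩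

theorem norm_gen {R T : Subgroup Lab} {δ : Gt} (e : ∀ p : Lab, δ • p ≈ₗ pE.val • p) (h1 : ∀ p ∈ R, δ • p ∈ R)
    (h2 : ∀ p ∈ R, δ • p ∈ T ↔ p ∈ T) (two : ∀ a ∈ R, ∀ b ∈ R, a * b ∈ T ↔ (a ∈ T ↔ b ∈ T)) {p : Lab}
    (a : p ∈ R) (b : p ∉ T) (l : List ℕ) : ∃ q ∈ R, (q ∈ T ↔ Even l.length) ∧ q ≈ₗ NL l p := by
  have k : ∀ i : ℕ, δ ^ i • p ∈ R ∧ δ ^ i • p ∉ T ∧ δ ^ i • p ≈ₗ pE.val ^ i • p := fun i => by
    induction i with
    | zero => simpa using ⟨a, b, Eqv.refl _⟩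
    | succ i ih =>
      rw [pow_succ', pow_succ', mul_smul, mul_smul]
      exact ⟨h1 _ ih.1, mt (h2 _ ih.1).1 ih.2.1, (e _).trans (ih.2.2.smul _)⟩
  induction l with
  | nil => exact ⟨1, one_mem _, by simp, Eqv.refl _⟩
  | cons i l ih =>
    obtain ⟨q, x, y, z⟩ := ih
    exact ⟨_, mul_mem (k i).1 x, by
      rw [two _ (k i).1 _ x, y, List.length_cons, Nat.even_add_one]; simp [(k i).2.1], (k i).2.2.mul z⟩

def lE : List (List ℕ) := [[0], [0, 1, 2, 6, 8, 9, 10, 11, 12, 13, 14, 15, 18], [3, 4, 7, 9, 12, 16, 18, 19, 20],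
  [0, 2, 8, 12, 13, 17, 20], [0, 1, 2, 9, 10, 11, 12, 13, 14, 15, 18, 20, 21],
  [0, 2, 3, 5, 7, 8, 13, 14, 15, 18, 19, 21], [0, 2, 5, 6, 7, 8, 11, 12, 13, 14, 17, 19],
  [0, 2, 5, 6, 8, 9, 10, 11, 12, 13, 14, 16, 17, 18, 21], [2, 4, 5, 6, 7, 8, 10, 17, 18, 20, 21],
  [2, 3, 8, 10, 11, 13, 16, 17, 21], [0, 1, 4, 8, 10, 12, 13, 15, 17, 18, 20], [], [0, 6, 7, 10, 16, 17, 18],
  [2, 3, 4, 6, 9, 13, 14, 15, 17, 19, 20, 21], [0, 3, 4, 7, 12, 14, 15, 17, 18, 19, 20, 21],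
  [0, 1, 4, 8, 10, 12, 13, 15, 17, 18, 20, 21], [0, 1, 2, 9, 10, 11, 12, 13, 14, 17, 18, 21],
  [0, 1, 2, 3, 5, 11, 13, 14, 15, 16, 17, 18], [7, 8, 9, 11, 12, 13, 16, 17, 19, 20, 21],
  [0, 5, 8, 9, 13, 14, 16, 18, 19, 20, 21], [0, 1, 5, 6, 9, 12, 14, 15, 16, 20, 21],
  [0, 1, 2, 5, 6, 7, 12, 13, 15, 19, 21], [0, 1, 2, 3, 5, 6, 7, 8, 10, 12, 13, 14, 17, 19, 20]]

theorem even_le {R : Subgroup Lab} (hx : xc ∈ R) (h1 : ∀ p ∈ R, pE.val • p ∈ R) (h2 : ∀ p ∈ R, yE.val • p ∈ R)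
    (h0 : yE.val • oL * oL⁻¹ ∈ R) {p : Lab} (hp : p.a 11 = 0) : p ∈ R := by
  have a : lab 8388609 ∈ R := mem_of_eqv hx (by rw [yE_Ok.smul]; decide +kernel) h0
  have b : ∀ k < 23, k ≠ 11 → lab (2 ^ k) ∈ R ∨ lab (2 ^ k) * Z 11 ∈ R := fun k h h' =>
    ((by decide +kernel : ∀ k < 23, k ≠ 11 → lab (2 ^ k) ≈ₗ lab (sx (lE.getD k []) 8388609) ∨
      lab (2 ^ k) * Z 11 ≈ₗ lab (sx (lE.getD k []) 8388609)) k h h').imp
      (fun e => mem_of_eqv hx (e.trans (NL_eqv _ _).symm) (NL_mem h1 _ a))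
      fun e => mem_of_eqv hx (e.trans (NL_eqv _ _).symm) (NL_mem h1 _ a)
  have z : Z 11 ∈ R := by
    rcases b 12 (by omega) (by omega) with e | e <;>
      exact mem_of_eqv hx (by rw [yE_Ok.smul]; decide +kernel) (mul_mem (h2 _ e) e)
  have c : ∀ k < 23, k ≠ 11 → lab (2 ^ k) ∈ R := fun k h h' =>
    (b k h h').elim id (mul_mem_cancel_right z).1
  obtain ⟨r, a, b, c⟩ := Lab.induction (P := fun p => ∃ r ∈ R, r.a = update p.a 11 0 ∧ r.b = p.b)
    ⟨1, one_mem _, by decide +kernel⟩ (fun k => by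
      by_cases e : k = 11
      · exact ⟨1, one_mem _, by rw [e]; decide +kernel⟩
      · exact ⟨X k, lab_X k ▸ c k (by omega) fun f => e (Fin.ext f), by revert k; decide +kernel, rfl⟩)
    (fun k => ⟨Z k, by
      by_cases e : k = 11
      · exact e ▸ z
      · exact lab_Z k ▸ c (12 + k) (by omega) (by omega), by revert k; decide +kernel, rfl⟩)
    (fun p q ⟨r, a, b, c⟩ ⟨s, d, e, f⟩ => ⟨r * s, mul_mem a d, by
      rw [mul_a, b, e, mul_a, ← update_add, add_zero], by rw [mul_b, c, f, mul_b]⟩) p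
  exact mem_of_eqv hx ⟨by rw [b, ← hp, update_eq_self], c.symm⟩ a

theorem odd_top {R : Subgroup Lab} (hx : xc ∈ R) (h1 : ∀ p ∈ R, pE.val • p ∈ R) (h2 : ∀ p ∈ R, yE.val • p ∈ R)
    {p : Lab} (a : p ∈ R) (b : p.a 11 ≠ 0) (q : Lab) : q ∈ R := by
  obtain ⟨v, hv, e⟩ := norm_odd b
  have m := e ▸ NL_mem h1 _ a
  have k := fun q => even_le hx h1 h2 (p := q) (by
    have := mul_mem (h2 _ m) (inv_mem m)
    rwa [smul_mul', R2_fix yE_mem_Np hv, mul_inv_rev, mul_assoc, mul_inv_cancel_left] at this)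
  by_cases c : q.a 11 = 0
  · exact k q c
  · exact (mul_mem_cancel_left a).1 (k _ (by
      rw [mul_a, Pi.add_apply, (z2_cases _).resolve_left b, (z2_cases _).resolve_left c]; rfl))

theorem red_near {x y : LL} {c : Finset Pt} (hc : c ∈ CS)
    (h : ∀ i, (8 : ℤ) ∣ (x : V) i - (y : V) i - 4 * ind c i) : red x = red y ∨ red x = red y + w8 := by
  have a := Finset.dvd_sum fun i (_ : i ∈ Finset.univ) => h i
  have b := Int.natCast_dvd_natCast.2 (four_dvd_card hc)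
  rw [Finset.sum_sub_distrib, ← Finset.mul_sum, sum_ind] at a
  by_cases e : (16 : ℤ) ∣ ∑ i, ((x : V) i - (y : V) i)
  · exact .inl ((red_diag h).2 ⟨hc, e⟩)
  · rw [← red_e8' none, ← map_add]
    refine .inr ((red_diag fun i => ?_).2 ⟨hc, ?_⟩)
    · have := h i
      rw [AddSubgroup.coe_add, Pi.add_apply, e8_apply]
      split_ifs <;> omega
    · simp only [AddSubgroup.coe_add, Pi.add_apply, ← sub_sub]
      rw [Finset.sum_sub_distrib]
      simp only [e8_apply, Finset.sum_ite_eq', Finset.mem_univ, if_true]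
      omega

theorem sextet {p : Lab} (hp : p ∈ DG) (h1 : p ∉ R2) (h2 : ¬ Short p) : ∃ n ∈ Np, ∃ v ∈ R2, n • p = v * fL := by
  classical
  obtain ⟨x, hx, e⟩ := DG_ind (P := fun p => ∃ x : LL, (∀ i, (4 : ℤ) ∣ (x : V) i) ∧ G.lam p = red x)
    ⟨0, by simp, by simp [lam_one']⟩ ⟨0, by simp, by simp [lam_eq_zero]⟩
    (fun k => ⟨wV k, four_wV k, by rw [← cls_wV, lam_cls]⟩)
    (fun p _ q _ ⟨x, a, b⟩ ⟨y, c, d⟩ => ⟨x + y, fun i => dvd_add (a i) (c i), by rw [lam_mul, b, d, map_add]⟩) hp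
  let s : Finset Pt := Finset.univ.filter fun i => ¬ (8 : ℤ) ∣ (x : V) i
  have k : ∀ i, (8 : ℤ) ∣ (x : V) i - 4 * ind s i := fun i => by
    have := hx i
    by_cases a : (8 : ℤ) ∣ (x : V) i <;> simp only [ind, s, Finset.mem_filter, Finset.mem_univ, true_and, a,
      not_true, not_false_iff, if_true, if_false] <;> omega
  obtain ⟨t, t4, hc⟩ := exists_small s
  have et : Even t.card := by
    have a := Finset.dvd_sum fun i (_ : i ∈ Finset.univ) => k i
    rw [Finset.sum_sub_distrib, ← Finset.mul_sum, sum_ind] at a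
    have := framed_leech.sum_four x.2 hx
    have := card_symmDiff_add s t
    have := four_dvd_card hc
    rw [Nat.even_iff]
    omega
  have r := red_near (x := x) (y := f4 t) hc fun i => by
    have := k i
    have := two_ind_symmDiff s t i
    rw [f4_apply et]
    omega
  rw [← e] at r
  have rv : ∀ {a b : Lab}, (G.lam a = G.lam b ∨ G.lam a = G.lam b + w8) → ∃ v ∈ R2, a = v * b := fun {a b} h => by
    rw [← lam_Y0, ← lam_mul, lam_eq_iff, lam_eq_iff] at h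
    refine ⟨a * b⁻¹, ?_, by simp⟩
    rcases h with h | h
    exacts [mem_R2_of (j := 0) (by simp [h.1, ix_add_self]) (by simp [h.2, ix_add_self]),
      mem_R2_of (j := 1) (by simp [h.1, ix_add_self, Y0, Z]) (by simp [h.2, ix_aba, Y0, Z])]
  obtain c | c | c : t.card = 0 ∨ t.card = 2 ∨ t.card = 4 := by rw [Nat.even_iff] at et; omega
  · rw [show f4 t = 0 from LL.ext fun i => by
      rw [f4_apply et]; simp [Finset.card_eq_zero.1 c, ind], map_zero, ← lam_one'] at r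
    obtain ⟨v, hv, e⟩ := rv r
    exact absurd (by rwa [e, mul_one]) h1
  · obtain ⟨i, j, ij, rfl⟩ := Finset.card_eq_two.1 c
    rw [show f4 {i, j} = p4 i j from LL.ext fun k => by
      rw [f4_apply et, p4_apply]; by_cases k = i <;> by_cases k = j <;> simp_all [ind]] at r
    refine absurd (r.elim (fun e => ⟨_, nm_p4 ij, lam_eq.1 e⟩) fun e => ⟨_, nm_m4 ij, lam_eq.1 ?_⟩) h2
    rw [e, ← red_e8' j, ← red_sub]
    exact congrArg red (LL.ext fun k => by
      rw [AddSubgroup.coe_sub, Pi.sub_apply, p4_apply, m4_apply, e8_apply]; split_ifs <;> rfl)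
  · obtain ⟨σ, hσ, e⟩ := M24_homog (s := t) (t := ofMask 15) (by rw [c]; decide +kernel) (by omega)
    obtain ⟨γ, a, b⟩ := exists_C0 ⟨σ, hσ⟩
    refine ⟨γ, C0_le_Np a, rv ?_⟩
    have : G.lam fL = gOf γ • red (f4 t) := by
      rw [b, ← red_smul, perm_f4 _ et, e, lam_eq, cls_eq_clsF (f4_pt (by decide +kernel))]
      decide +kernel
    rw [lam_smul, this, ← smul_w8_iff.2 (C0_mon a), ← smul_add]
    exact r.imp (congrArg _) (congrArg _)

end CF.MonA
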