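import Cfsg.Agent.MonA.A
import Cfsg.Agent.MonA.B

/-! The second subgroup of the amalgam meets the first in the stabiliser of a frame. -/

set_option autoImplicit false
set_option maxHeartbeats 400000
set_option maxRecDepth 100000

namespace CF.MonA

open Cfsg Subgroup CF.Leech CF.Mon CF.Mon.L CF.Mon.Lab CF.Known.Mon MulAction CF.LX CF.Loc
open CF.Mon.G hiding AS
open CF.Even Function Spor CF.MonU
open CF.XT.Co hiding a v M F σ N0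
open scoped commutatorElement Pointwise

variable {Γ : Type*} [Group Γ] {ρ : Gt →* Γ} {C N L N0 X' : Subgroup Γ} {t a : Γ}

/-- `ρ` maps `Gt` onto `C` -/
structure Rc (ρ : Gt →* Γ) (C : Subgroup Γ) : Prop where
  x_ne : ρ (pauli xc) ≠ 1
  rg : ρ.range = C
  kp : ρ kap = 1 ∨ ρ negG = 1

/-- the map to `Co1` -/
noncomputable abbrev pr : Gt →* S := XT.Co.mk.comp gOf

/-- the twist of `ρ` by an inner automorphism -/
noncomputable abbrev twi (ρ : Gt →* Γ) (δ : Gt) : Gt →* Γ := ρ.comp (MulAut.conj δ).toMonoidHom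

theorem twi_apply (δ γ : Gt) : twi ρ δ γ = ρ (δ * γ * δ⁻¹) := rfl

namespace Rc
variable (h : Rc ρ C)
include h

theorem ro : Ro ρ.rangeRestrict :=
  ⟨fun e => h.x_ne (congrArg Subtype.val e), by
    rw [MonoidHom.range_eq_top.2 ρ.rangeRestrict_surjective, eq_top_iff]
    rintro ⟨_, γ, rfl⟩ -
    exact mem_c1.2 (rho_comm_iff' (ρ := ρ.rangeRestrict) γ), h.kp.imp Subtype.ext Subtype.ext⟩

theorem mem (γ : Gt) : ρ γ ∈ C := h.rg ▸ ⟨γ, rfl⟩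

theorem ex {g : Γ} (k : g ∈ C) : ∃ γ, ρ γ = g := h.rg.ge k

theorem inj {p q : Lab} : ρ (pauli p) = ρ (pauli q) ↔ p = q := rho_pauli_inj h.x_ne

theorem smul_eq {γ δ : Gt} (e : ρ γ = ρ δ) (p : Lab) : γ • p = δ • p := h.ro.smul_eq (Subtype.ext e) p

theorem exq {γ : Gt} : (∃ p, ρ γ = ρ (pauli p)) ↔ pr γ = 1 :=
  Iff.trans ⟨fun ⟨p, e⟩ => ⟨p, Subtype.ext e.symm⟩, fun ⟨p, e⟩ => ⟨p, congrArg Subtype.val e.symm⟩⟩
    (h.ro.mem_QQ_iff.trans (mk_one _).symm)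

theorem twist (δ : Gt) : Rc (twi ρ δ) C := by
  have e : twi ρ δ (pauli xc) = ρ (pauli xc) := congrArg ρ (conj_eq_iff.2 (xc_pauli_comm δ))
  have n : twi ρ δ negG = ρ negG := congrArg ρ (conj_eq_iff.2 (negG_comm δ))
  refine ⟨e ▸ h.x_ne, ?_, ?_⟩
  · rw [MonoidHom.range_comp, (MonoidHom.range_eq_top (f := (MulAut.conj δ).toMonoidHom)).2
      (MulAut.conj δ).surjective, ← MonoidHom.range_eq_map, h.rg]
  · rw [n, kap, map_mul, e, n, ← map_mul]; exact h.kp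

theorem conj_Q {g q : Γ} (hg : g ∈ C) (hq : q ∈ QQ ρ) : g * q * g⁻¹ ∈ QQ ρ := by
  obtain ⟨γ, rfl⟩ := h.ex hg
  obtain ⟨p, rfl⟩ := hq
  exact ⟨_, (rho_conj γ p).symm⟩

end Rc

theorem two_Q : IsPGroup 2 (QQ ρ) :=
  (IsPGroup.of_card (n := 25) Lab.card).of_surjective _ (ρ.comp pauli).rangeRestrict_surjective

theorem perf {D H : Subgroup Gt} (m : D.map pr = NS) (c : ∀ a ∈ D, ∀ b ∈ D, a * b * a⁻¹ * b⁻¹ ∈ H)
    (k : ∀ γ ∈ D, pr γ = 1 → γ ∈ H) : D ≤ H := fun γ hγ => by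
  obtain ⟨δ, a, e⟩ := NS_perf (K := (H ⊓ D).map pr) (fun x hx y hy => by
    obtain ⟨x, a, rfl⟩ := m.ge hx
    obtain ⟨y, b, rfl⟩ := m.ge hy
    exact ⟨_, ⟨c x a y b, D.mul_mem (D.mul_mem (D.mul_mem a b) (D.inv_mem a)) (D.inv_mem b)⟩, by
      simp only [map_mul, map_inv]⟩) (m.le ⟨γ, hγ, rfl⟩)
  exact (H.mul_mem_cancel_left (H.inv_mem a.1)).1 (k _ (D.mul_mem (D.inv_mem a.2) hγ) (by
    rw [map_mul, map_inv, e, inv_mul_cancel]))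

theorem comm_two {D H : Subgroup Γ} (two : ∀ a ∈ D, ∀ b ∈ D, a * b ∈ H ↔ (a ∈ H ↔ b ∈ H)) {a b : Γ}
    (x : a ∈ D) (y : b ∈ D) : a * b * a⁻¹ * b⁻¹ ∈ H := by
  rw [two _ (mul_mem (mul_mem x y) (inv_mem x)) _ (inv_mem y), two _ (mul_mem x y) _ (inv_mem x),
    two _ x _ y, inv_mem_iff, inv_mem_iff]
  tauto

theorem Np_two (a : Gt) (x : a ∈ Mon.comap gOf) (b : Gt) (y : b ∈ Mon.comap gOf) :
    a * b ∈ Np ↔ (a ∈ Np ↔ b ∈ Np) := by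
  have n : xc * Z 11 ≠ Z 11 := by decide +kernel
  rw [mem_Np, mem_Np, mem_Np, mul_smul]
  rcases (smul_Z11_iff.2 x).cases with e | e <;> rcases (smul_Z11_iff.2 y).cases with f | f <;>
    simp [e, f, smul_xc_mul, n, ← mul_assoc, xc_mul_xc]

theorem pr_eqv {γ δ : Gt} (e : pr γ = pr δ) (p : Lab) : γ • p ≈ₗ δ • p := by
  rw [← lam_eq_iff, lam_smul, lam_smul]
  rcases mk_eq.1 e with e | e <;> rw [e]
  rw [mul_smul, negCo_red]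

/-- the standard position -/
structure St (ρ : Gt →* Γ) (C N N0 X' : Subgroup Γ) : Prop extends Rc ρ C where
  eN : ∀ γ, ρ γ ∈ N ↔ gOf γ ∈ Mon
  e0 : ∀ γ, ρ γ ∈ N0 ↔ γ ∈ Np
  eX : ∀ γ, ρ γ ∈ X' ↔ gOf γ ∈ Sg

theorem St.twist (h : St ρ C N N0 X') {n : Gt} (hn : n ∈ Np) : St (twi ρ n) C N N0 X' :=
  have m := Np_mon hn
  ⟨h.toRc.twist n, fun γ => by
    rw [twi_apply, h.eN, map_mul, map_mul, map_inv, mul_mem_cancel_right (inv_mem m), mul_mem_cancel_left m],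
    fun γ => by rw [twi_apply, h.e0, mul_mem_cancel_right (inv_mem hn), mul_mem_cancel_left hn], fun γ => by
      rw [twi_apply, h.eX, map_mul, map_mul, map_inv]
      exact ⟨fun k => by simpa [mul_assoc] using conj_mem_Sg (inv_mem m) k, conj_mem_Sg m⟩⟩

variable (A : Ab C N L N0 X' t a)
include A

theorem Rc.QX (h : Rc ρ C) {p : Lab} (k : ρ (pauli p) ∈ N) : ρ (pauli p) ∈ X' := by
  obtain ⟨μ, s, e⟩ := A.mu
  haveI := Comp.Mat.isSimpleGroup_M24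
  haveI : Finite M24 := Nat.finite_of_card_ne_zero (by rw [Comp.Mat.card_M24]; decide)
  haveI : ((QQ ρ).subgroupOf (N ⊓ C)).Normal := ⟨fun q hq g => h.conj_Q g.2.2 hq⟩
  haveI := this.map μ s
  exact (e ⟨_, k, h.mem _⟩).1 (mem_bot.1 ((eq_bot_of_simple (N := ((QQ ρ).subgroupOf _).map μ) ((two_Q.comap_subtype).map μ)
    (by rw [Comp.Mat.card_M24]; decide)).le ⟨_, pauli_mem_QQ ρ p, rfl⟩))

theorem Rc.exists_NS (h : Rc ρ C) :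
    ∃ δ, (N.comap (twi ρ δ)).map pr = NS ∧ (X'.comap (twi ρ δ)).map pr = AS := by
  obtain ⟨μ, s, e⟩ := A.mu
  have kX : ∀ γ, ρ γ ∈ N → pr γ = 1 → ρ γ ∈ X' := fun γ a b => by
    obtain ⟨p, k⟩ := h.exq.2 b
    rw [k] at a ⊢
    exact h.QX A a
  obtain ⟨ν, hν⟩ := exists_hom_of_rel (A := (N.comap ρ).map pr) (L := M24)
    (fun x s => ∃ γ, ∃ k : ρ γ ∈ N, pr γ = x ∧ μ ⟨ρ γ, k, h.mem γ⟩ = s)
    (fun ⟨_, γ, k, e⟩ => ⟨_, γ, k, e, rfl⟩)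
    (by
      rintro x _ _ ⟨γ, a, b, rfl⟩ ⟨δ, c, d, rfl⟩
      rw [← inv_mul_eq_one, ← map_inv, ← map_mul, e]
      simpa using kX (γ⁻¹ * δ) (by simpa using mul_mem (inv_mem a) c) (by
        rw [map_mul, map_inv, b, d, inv_mul_cancel]))
    (by
      rintro x _ y _ ⟨γ, a, b, rfl⟩ ⟨δ, c, d, rfl⟩
      exact ⟨γ * δ, by simpa using mul_mem a c, by rw [map_mul, b, d]; rfl,
        (congrArg μ (Subtype.ext (map_mul ρ _ _))).trans (map_mul μ ⟨_, a, h.mem γ⟩ ⟨_, c, h.mem δ⟩)⟩)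
  obtain ⟨g, e1, e2⟩ := MonA.exists_NS (R := (X'.comap ρ).map pr) ν (fun σ => by
      obtain ⟨⟨g, a, b⟩, rfl⟩ := s σ
      obtain ⟨γ, rfl⟩ := h.ex b
      exact ⟨⟨_, γ, a, rfl⟩, (hν _ _).2 ⟨γ, a, rfl, rfl⟩⟩)
    (fun x => (hν _ _).trans ⟨fun ⟨γ, a, b, c⟩ => ⟨γ, (e _).1 c, b⟩,
      fun ⟨γ, a, b⟩ => ⟨γ, A.XN a, b, (e _).2 a⟩⟩) (map_mono (comap_mono A.XN)) (by
      rintro ⟨_, γ, a, rfl⟩
      obtain ⟨k, c⟩ := A.E2 ⟨ρ γ, h.mem γ, a⟩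
      exact ⟨k, Subtype.ext ((map_pow pr γ _).symm.trans (h.exq.1 ⟨1, by
        rw [map_one, map_one, map_pow]; exact congrArg Subtype.val c⟩))⟩) fun k =>
    A.nQ _ two_Q (fun g hg => mem_normalizer_iff.2 fun q => ⟨h.conj_Q hg, fun k => by
      simpa [mul_assoc] using h.conj_Q (inv_mem hg) k⟩) fun g hg => by
        obtain ⟨γ, rfl⟩ := h.ex hg.1
        obtain ⟨p, e⟩ := h.exq.2 (mem_bot.1 (k.le ⟨γ, hg.2, rfl⟩))
        exact ⟨p, e.symm⟩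
  obtain ⟨g, rfl⟩ := mk_surj g
  obtain ⟨δ, rfl⟩ := gOf_surjective g
  have k : ∀ B : Subgroup Γ, (B.comap (twi ρ δ⁻¹)).map pr = cj[pr δ] ((B.comap ρ).map pr) := fun B => by
    refine le_antisymm ?_ ?_
    · rintro _ ⟨γ, k, rfl⟩
      exact mem_cj.2 ⟨_, k, by simp⟩
    · rintro _ ⟨_, ⟨γ, k, rfl⟩, rfl⟩
      exact ⟨δ * γ * δ⁻¹, by simpa [mul_assoc] using k, by simp⟩
  exact ⟨δ⁻¹, (k N).trans e1, (k X').trans e2⟩

theorem Rc.QN (h : Rc ρ C) (mN : (N.comap ρ).map pr = NS) (p : Lab) : ρ (pauli p) ∈ N := by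
  have lift : ∀ γ, gOf γ ∈ Mon → ∃ δ, ρ δ ∈ N ∧ ∀ p : Lab, δ • p ≈ₗ γ • p := fun γ k =>
    let ⟨δ, a, b⟩ := mN.ge (mk_NS.2 k); ⟨δ, a, pr_eqv b⟩
  have inv : ∀ δ, ρ δ ∈ N → ∀ p, ρ (pauli p) ∈ N → ρ (pauli (δ • p)) ∈ N := fun δ a p b =>
    rho_conj (ρ := ρ) δ p ▸ mul_mem (mul_mem a b) (inv_mem a)
  obtain ⟨o, o1, o2⟩ : ∃ o, ρ (pauli o) ∈ N ∧ o.a 11 ≠ 0 := by
    by_contra! n
    have D : N.comap ρ ≤ Np := perf mN (fun a x b y => comm_two Np_two (mk_NS.1 (mN.le ⟨a, x, rfl⟩))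
      (mk_NS.1 (mN.le ⟨b, y, rfl⟩))) fun γ a b => by
        obtain ⟨p, k⟩ := h.exq.2 b
        rw [mem_Np, h.smul_eq k, ← mem_Np, pauli_mem_Np]
        exact n p (k ▸ a)
    obtain ⟨p, p1, p2⟩ : ∃ p, ρ (pauli p) ∈ N ∧ ρ (pauli p) ∉ N0 := by
      by_contra! m
      refine A.ne fun g hg => ?_
      obtain ⟨γ, rfl⟩ := h.ex hg.2
      refine perf (H := N0.comap ρ) mN (fun a x b y => ?_) (fun γ a b => ?_) hg.1
      · simpa using comm_two A.two ⟨x, h.mem a⟩ ⟨y, h.mem b⟩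
      · obtain ⟨p, k⟩ := h.exq.2 b
        exact mem_comap.2 (k ▸ m p (k ▸ a))
    obtain ⟨δ, d1, d2⟩ := lift _ (Np_mon pE_Np)
    obtain ⟨q, q1, q2, q3⟩ := norm_gen (R := N.comap (ρ.comp pauli)) (T := N0.comap (ρ.comp pauli)) d2
      (inv δ d1) (fun p _ => by
        change ρ (pauli _) ∈ N0 ↔ _
        rw [← rho_conj]
        exact (mem_normalizer_iff.1 (A.nN0 d1) _).symm) (fun a x b y => by
        simpa using A.two _ ⟨x, h.mem _⟩ _ ⟨y, h.mem _⟩) p1 p2 (List.range 23)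
    refine absurd (q2.1 (A.nc _ (h.QX A q1) fun o ho => ?_)) (by decide)
    obtain ⟨γ, rfl⟩ := h.ex (A.N0C ho.1)
    rw [MonoidHom.comp_apply, ← map_mul, ← R2_comm (D (A.N0N ho.1)) (mem_of_eqv xc_R2 q3 (norm_even (n p p1))), map_mul]
  let R : Subgroup Lab :=
    { carrier := {p | ∃ r, ρ (pauli r) ∈ N ∧ p ≈ₗ r}
      one_mem' := ⟨1, by simp, Eqv.refl _⟩
      mul_mem' := fun ⟨r, a, b⟩ ⟨s, c, d⟩ => ⟨r * s, by simpa using mul_mem a c, b.mul d⟩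
      inv_mem' := fun ⟨r, a, b⟩ => ⟨r, a, (inv_eqv _).trans b⟩ }
  have iR : ∀ γ, gOf γ ∈ Mon → ∀ p ∈ R, γ • p ∈ R := fun γ k p ⟨r, a, b⟩ =>
    let ⟨δ, c, d⟩ := lift γ k; ⟨_, inv δ c r a, (b.smul γ).trans (d r).symm⟩
  have top := odd_top (R := R) ⟨1, by simp, rfl, rfl⟩ (iR _ (Np_mon pE_Np)) (iR _ (Np_mon yE_mem_Np))
    ⟨o, o1, Eqv.refl _⟩ o2
  obtain ⟨r, r1, r2⟩ := top (X 0)
  obtain ⟨s, s1, s2⟩ := top (Z 0)
  obtain ⟨q, q1, q2⟩ := top p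
  exact mem_of_eqv (R := N.comap (ρ.comp pauli)) (xc_mem_of s1 (inv _ r1 _ s1) (by
    rw [← r2.bf s2]; decide +kernel)) q2 q1

theorem Rc.exists_St (h : Rc ρ C) : ∃ ρ' : Gt →* Γ, St ρ' C N N0 X' := by
  obtain ⟨δ, mN, mX⟩ := h.exists_NS A
  replace h := h.twist δ
  generalize twi ρ δ = ρ at *
  have q := h.QN A mN
  have k : ∀ {B : Subgroup Γ}, (∀ p, ρ (pauli p) ∈ B) → ∀ γ, ρ γ ∈ B ↔ pr γ ∈ (B.comap ρ).map pr :=
    fun b γ => ⟨fun a => ⟨γ, a, rfl⟩, fun ⟨δ, c, d⟩ => by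
      obtain ⟨p, e⟩ := h.exq.2 (show pr (δ⁻¹ * γ) = 1 by rw [map_mul, map_inv, d, inv_mul_cancel])
      have := mul_mem c (e ▸ b p)
      simpa using this⟩
  have eN : ∀ γ, ρ γ ∈ N ↔ gOf γ ∈ Mon := fun γ => by rw [k q, mN]; exact mk_NS
  have cm : ∀ a b, gOf a ∈ Mon → gOf b ∈ Mon → ρ (a * b * a⁻¹ * b⁻¹) ∈ N0 := fun a b x y => by
    simpa using comm_two A.two ⟨(eN a).2 x, h.mem a⟩ ⟨(eN b).2 y, h.mem b⟩
  have iv : ∀ γ ∈ Np, ∀ p ∈ N0.comap (ρ.comp pauli), γ • p ∈ N0.comap (ρ.comp pauli) := fun γ a p b =>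
    show ρ _ ∈ N0 from rho_conj (ρ := ρ) γ p ▸ (mem_normalizer_iff.1 (A.nN0 ((eN γ).2 (Np_mon a))) _).1 b
  have l : Np ≤ N0.comap ρ := perf (by rw [← map_map, map_Np]; rfl)
    (fun a x b y => cm a b (Np_mon x) (Np_mon y)) fun γ a b => by
      obtain ⟨p, e⟩ := h.exq.2 b
      rw [mem_Np, h.smul_eq e, ← mem_Np, pauli_mem_Np] at a
      refine mem_comap.2 (e ▸ even_le (R := N0.comap (ρ.comp pauli)) ?_ (iv _ pE_Np) (iv _ yE_mem_Np) ?_ a)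
      · simpa [← comm_XZ0] using cm (pauli (X 0)) (pauli (Z 0)) Mon.one_mem Mon.one_mem
      · have := cm yE.val (pauli oL) (Np_mon yE_mem_Np) Mon.one_mem
        rwa [conj_pauli', ← map_inv, ← map_mul] at this
  refine ⟨ρ, h, eN, fun γ => ⟨fun b => by_contra fun n => A.ne fun g hg => ?_, fun b => l b⟩, fun γ => by
    rw [k fun p => h.QX A (q p), mX]; exact mk_AS⟩
  obtain ⟨δ, rfl⟩ := h.ex hg.2
  have o : pauli (X 11) ∈ N0.comap ρ := (mul_mem_cancel_right (mem_comap.2 b)).1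
    (l ((mem_Np_or ((eN γ).1 (A.N0N b))).resolve_left n))
  exact (mem_Np_or ((eN δ).1 hg.1)).elim (fun c => l c) fun c => (mul_mem_cancel_left o).1 (l c)

end CF.MonA
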