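import Cfsg.Agent.MonA.C
import Cfsg.Agent.Mon.Cert

/-! The conjugates of the extraspecial group in the second subgroup of the amalgam. -/

set_option autoImplicit false
set_option maxHeartbeats 400000
set_option maxRecDepth 100000

namespace CF.MonA

open Cfsg Subgroup CF.Leech CF.Mon CF.Mon.L CF.Mon.Lab CF.Known.Mon MulAction CF.LX CF.Loc
open CF.Mon.G hiding AS
open CF.Even Function Spor CF.MonU
open CF.XT.Co hiding a v M F σ N0 k1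
open scoped commutatorElement Pointwise

variable {Γ : Type*} [Group Γ] {ρ : Gt →* Γ} {C N L N0 X' : Subgroup Γ} {t a : Γ}

theorem exists_PM : ∃ _ : Finite T.MV, ∃ P, Pr rhoM P := by
  have := outM.finite
  have r : Ro rhoM := ⟨outM.x_ne, outM.cx, .inl outM.kap⟩
  obtain ⟨P, h⟩ := r.exists_pair ⟨tauM, by
    rw [mul_inv_eq_iff_eq_mul.2 relsM.zero.tau_x]
    exact ⟨pauli_mem_QQ _ _, fun e => absurd (r.inj.1 e) (by decide +kernel)⟩⟩
  exact ⟨this, P, r, h⟩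

theorem RT_smul {u : Gt} (hu : u ∈ RT) {p : Lab} (hp : p ∈ DG) : ∃ v ∈ R2, u • p = v * p :=
  let ⟨_, _, h⟩ := exists_PM; h.RT_smul hu hp

theorem au_inner (k : ρ kap = 1) (hx : ρ (pauli xc) ≠ 1) {f : Gt → Γ} (A : Au ρ f) :
    ∃ r ∈ RT, ∀ n ∈ Np, f n = ρ r * ρ n * (ρ r)⁻¹ := by
  classical
  obtain ⟨_, _, h⟩ := exists_PM
  let f' : Gt → T.MV := fun n => if h : ∃ m, f n = ρ m then rhoM h.choose else 1
  have sp : ∀ n m, f n = ρ m → f' n = rhoM m := fun n m e => by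
    have k' : ∃ m, f n = ρ m := ⟨m, e⟩
    simp only [f', dif_pos k']
    exact trans_of relsM.kap k hx _ _ (k'.choose_spec.symm.trans e)
  obtain ⟨r, a, b⟩ := Au.inner (f := f') ⟨fun a ha b hb => by
      obtain ⟨u, -, e⟩ := A.n a ha
      obtain ⟨w, -, e'⟩ := A.n b hb
      rw [sp _ _ e, sp _ _ e', sp _ _ (by rw [A.mul a ha b hb, e, e', ← map_mul]), map_mul],
    by rw [sp _ 1 (by rw [A.kap, map_one]), map_one], fun n hn => (A.n n hn).imp fun _ => And.imp_right (sp _ _),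
    fun p hp => (A.e p hp).imp fun _ => And.imp_right (sp _ _), fun v hv => sp _ _ (A.v v hv)⟩ h
  refine ⟨r, a, fun n hn => ?_⟩
  obtain ⟨u, -, e⟩ := A.n n hn
  rw [e, ← map_inv, ← map_mul, ← map_mul]
  exact trans_of k relsM.kap x_neM _ _ (by rw [← sp _ _ e, b n hn, map_mul, map_mul, map_inv])

theorem even_smul {n : Gt} (hn : n ∈ Np) {p : Lab} (h : p.a 11 = 0) : (n • p).a 11 = 0 := by
  rw [← pauli_mem_Np, ← conj_pauli'] at *
  exact mul_mem (mul_mem hn h) (inv_mem hn)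

theorem R2_of_bf {x : Lab} (h : ∀ p : Lab, p.a 11 = 0 → bf x p = 0) : x ∈ R2 :=
  mem_R2_of (j := x.b 11) (funext fun k => (bf_Z' k x).symm.trans (h _ rfl)) (funext fun k => by
    by_cases e : k = 11
    · simp [e]
    · rw [← bf_X', h _ (by simp [X, Ne.symm e])]; simp [e])

theorem R2_sq {v : Lab} (h : v ∈ R2) : v * v = 1 := by rcases h with rfl | rfl | rfl | rfl <;> decide +kernel

theorem cj_comm {g x y : Γ} (a : x ∈ cj[g] (QQ ρ)) (b : y ∈ cj[g] (QQ ρ)) :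
    x * y * x⁻¹ = y ∨ x * y * x⁻¹ = g * ρ (pauli xc) * g⁻¹ * y := by
  obtain ⟨_, ⟨p, rfl⟩, rfl⟩ := a
  obtain ⟨_, ⟨q, rfl⟩, rfl⟩ := b
  have : ∀ r, pauli p • q = r → g * ρ (pauli p) * g⁻¹ * (g * ρ (pauli q) * g⁻¹) * (g * ρ (pauli p) * g⁻¹)⁻¹ =
    g * ρ (pauli r) * g⁻¹ := fun r e => by rw [← e, ← rho_conj]; group
  rcases z2_cases (bf p q) with e | e
  · exact .inl (this _ (pauli_smul_eq_iff.2 e))
  · exact .inr ((this _ (pauli_smul_of_one e)).trans (by rw [← rho_pauli_mul, conj_mul_conj]; rfl))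

/-- `g` acts trivially on the diagonal labels modulo the frame group -/
def Ed (ρ : Gt →* Γ) (g : Γ) : Prop := ∀ p ∈ DG, ∃ v ∈ R2, g * ρ (pauli p) * g⁻¹ = ρ (pauli (v * p))

theorem Ed.mul {g k : Γ} (a : Ed ρ g) (b : Ed ρ k) : Ed ρ (g * k) := fun p hp => by
  obtain ⟨v, hv, e⟩ := b p hp
  obtain ⟨w, hw, f⟩ := a _ (mul_mem (R2_le hv) hp)
  exact ⟨w * v, mul_mem hw hv, by rw [mul_assoc w, ← f, ← e]; group⟩

theorem ed_odd : Ed ρ (ρ (pauli (X 11))) := fun p _ =>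
  ⟨xp (bf (X 11) p), by rcases z2_cases (bf (X 11) p) with e | e <;> simp [e, xc_R2],
    by rw [rho_conj, pauli_smul']⟩

namespace St
variable (h : St ρ C N N0 X')
include h

theorem memO {u : Gt} (hu : u ∈ RT) : ρ u ∈ N0 ⊓ X' := ⟨(h.e0 u).2 hu.1, (h.eX u).2 hu.2⟩

theorem cent_A {γ : Gt} (e : ∀ p : Lab, p.a 11 = 0 → ρ γ * ρ (pauli p) = ρ (pauli p) * ρ γ) :
    ∃ v ∈ R2, ρ γ = ρ (pauli v) := by
  obtain ⟨v, hv, rfl | rfl⟩ := of_fix_A fun p hp => (rho_comm_iff h.x_ne).1 (e p hp)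
  · exact ⟨v, hv, rfl⟩
  · rcases h.ro.kap_mem with k | k <;> replace k := congrArg Subtype.val k
    · exact ⟨v, hv, by rw [map_mul, show ρ kap = 1 from k, one_mul]⟩
    · exact ⟨_, mul_mem xc_R2 hv, by rw [map_mul, show ρ kap = ρ (pauli xc) from k, rho_pauli_mul]⟩

theorem oX : ρ (pauli (X 11)) ∈ X' := (h.eX _).2 Sg.one_mem

variable (A : Ab C N L N0 X' t a)
include A

theorem ofO {g : Γ} (b : g ∈ N0 ⊓ X') : ∃ u ∈ RT, ρ u = g := by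
  obtain ⟨u, rfl⟩ := h.ex (A.N0C b.1)
  exact ⟨u, ⟨(h.e0 u).1 b.1, (h.eX u).1 b.2⟩, rfl⟩

omit h in
theorem conjO {g x : Γ} (hg : g ∈ N) (b : x ∈ N0 ⊓ X') : g * x * g⁻¹ ∈ N0 ⊓ X' :=
  ⟨(mem_normalizer_iff.1 (A.nN0 hg) x).1 b.1, (mem_normalizer_iff.1 (A.nX hg) x).1 b.2⟩

theorem conj_N {g : Γ} (hg : g ∈ X') {n : Gt} (hn : n ∈ Np) : ∃ u ∈ RT, g * ρ n * g⁻¹ = ρ (u * n) := by
  have m := (h.e0 n).2 hn
  obtain ⟨u, hu, e⟩ := h.ofO A (g := g * ρ n * g⁻¹ * (ρ n)⁻¹)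
    (mem_inf.2 ⟨mul_mem ((mem_normalizer_iff.1 (A.nN0 (A.XN hg)) _).1 m) (inv_mem m), by
      simpa only [mul_assoc] using mul_mem hg ((mem_normalizer_iff.1 (A.nX (A.N0N m)) _).1 (inv_mem hg))⟩)
  exact ⟨u, hu, by rw [map_mul, e, inv_mul_cancel_right]⟩

theorem conj_V {g : Γ} (hg : g ∈ N) {v : Lab} (hv : v ∈ R2) :
    ∃ w ∈ R2, g * ρ (pauli v) * g⁻¹ = ρ (pauli w) := by
  obtain ⟨u, -, e⟩ := h.ofO A (conjO A hg (h.memO (DG_RT (R2_le hv))))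
  rw [← e]
  refine h.cent_A fun p hp => ?_
  obtain ⟨w, hw, f⟩ := h.ofO A (conjO A (inv_mem hg) (h.memO (pauli_RT hp)))
  have := congrArg ρ (R2_comm hw.1 hv)
  rw [map_mul, map_mul, f] at this
  calc _ = g * (ρ (pauli v) * (g⁻¹ * ρ (pauli p) * g⁻¹⁻¹)) * g⁻¹ := by rw [e]; group
    _ = _ := by rw [← this, e]; group

theorem conj_P {g x : Γ} (hg : g ∈ N) {n : Gt} (hn : n ∈ Np) (b : x ∈ cj[g] (QQ ρ)) :
    ρ n * x * (ρ n)⁻¹ ∈ cj[g] (QQ ρ) := mem_cj.2 (by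
  simpa [mul_assoc] using h.conj_Q (A.N0C ((mem_normalizer_iff.1 (A.nN0 (inv_mem hg)) _).1 ((h.e0 n).2 hn)))
    (mem_cj.1 b))

theorem exists_out {g : Γ} (hg : g ∈ N) (n : g ∉ C) :
    ∃ p : Lab, p.a 11 = 0 ∧ g * ρ (pauli p) * g⁻¹ ∉ QQ ρ := by
  by_contra! k
  let E := EE ρ (Np.comap pauli)
  have mE : ∀ x ∈ E, x ∈ N0 ⊓ X' := by
    rintro _ ⟨p, hp, rfl⟩
    exact h.memO (pauli_RT (pauli_mem_Np.1 hp))
  haveI : Finite E := Finite.of_surjective _ ((ρ.comp pauli).subgroupMap_surjective _)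
  have nE : g ∈ 𝐍(E) := mem_normalizer_fintype (by
    rintro _ ⟨p, hp, rfl⟩
    obtain ⟨q, e⟩ := k p (pauli_mem_Np.1 hp)
    exact ⟨q, (h.e0 _).1 (e ▸ (conjO A hg (mE _ ⟨p, hp, rfl⟩)).1 :), e⟩)
  set z := ρ (pauli xc) with hz
  have zz : z * z = 1 := rho_xx
  have gz : g * z * g⁻¹ = z := by
    obtain ⟨p, e⟩ := k (X 0) (by decide)
    obtain ⟨q, f⟩ := k (Z 0) rfl
    have a := cj_comm (ρ := ρ) (g := 1) (x := g * ρ (pauli (X 0)) * g⁻¹) (y := g * ρ (pauli (Z 0)) * g⁻¹)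
      (by rw [cj_one]; exact ⟨p, e⟩) (by rw [cj_one]; exact ⟨q, f⟩)
    rw [show g * ρ (pauli (X 0)) * g⁻¹ * (g * ρ (pauli (Z 0)) * g⁻¹) * (g * ρ (pauli (X 0)) * g⁻¹)⁻¹ =
      g * (ρ (pauli (X 0)) * ρ (pauli (Z 0)) * (ρ (pauli (X 0)))⁻¹) * g⁻¹ by group, rho_conj,
      pauli_smul_of_one (by decide +kernel), ← rho_pauli_mul, conj_mul_conj, mul_eq_right, mul_left_inj] at a
    simpa using a.resolve_left (by simpa using h.x_ne)
  set o := ρ (pauli (X 11)) with ho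
  have a1 : ∀ x ∈ E, o * x * o⁻¹ = x ∨ o * x * o⁻¹ = z * x := by
    rintro _ ⟨p, -, rfl⟩
    simpa using cj_comm (ρ := ρ) (g := 1) (x := o) (y := ρ (pauli p)) (by simpa using pauli_mem_QQ ρ _)
      (by simpa using pauli_mem_QQ ρ _)
  have a2 : ∀ x ∈ E, g * o * g⁻¹ * x * (g * o * g⁻¹)⁻¹ = x ∨ g * o * g⁻¹ * x * (g * o * g⁻¹)⁻¹ = z * x :=
    fun x hx => gz ▸ cj_comm (conj_mem_cj g (pauli_mem_QQ ρ _)) (mem_cj.2 (by
      obtain ⟨p, -, e⟩ := (mem_normalizer_iff.1 (inv_mem nE) x).1 hx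
      exact ⟨p, by simpa using e⟩))
  have oz : o * z * o⁻¹ = z := by rw [rho_conj, smul_xc]
  have wX : o * (g * o * g⁻¹) ∈ X' := mul_mem h.oX ((mem_normalizer_iff.1 (A.nX hg) _).1 h.oX)
  have wz : o * (g * o * g⁻¹) * z * (o * (g * o * g⁻¹))⁻¹ = z := by
    calc _ = o * (g * (o * (g⁻¹ * z * g) * o⁻¹) * g⁻¹) * o⁻¹ := by group
      _ = z := by rw [show g⁻¹ * z * g = z by nth_rw 1 [← gz]; group, oz, gz, oz]
  refine A.s3 o ⟨(h.eN _).2 Mon.one_mem, h.mem _⟩ (by rw [ho, h.e0, pauli_mem_Np]; decide) g hg n ?_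
  have a3 : ∀ x ∈ E, o * (g * o * g⁻¹) * x * (o * (g * o * g⁻¹))⁻¹ = x ∨
      o * (g * o * g⁻¹) * x * (o * (g * o * g⁻¹))⁻¹ = z * x := fun x hx => by
    rw [show o * (g * o * g⁻¹) * x * (o * (g * o * g⁻¹))⁻¹ =
      o * (g * o * g⁻¹ * x * (g * o * g⁻¹)⁻¹) * o⁻¹ by group]
    rcases a2 x hx with e | e <;> rw [e]
    · exact a1 x hx
    · rw [conj_mul_conj, oz]
      rcases a1 x hx with e | e <;> rw [e]
      exacts [.inr rfl, .inl (by rw [← mul_assoc, zz, one_mul])]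
  generalize o * (g * o * g⁻¹) = w at *
  have a4 : ∀ x ∈ E, w * w * x * (w * w)⁻¹ = x := fun x hx => by
    rw [show w * w * x * (w * w)⁻¹ = w * (w * x * w⁻¹) * w⁻¹ by group]
    rcases a3 x hx with e | e
    · rw [e, e]
    · rw [e, conj_mul_conj, wz, e, ← mul_assoc, zz, one_mul]
  rw [show w ^ 4 = w * w * (w * w) by simp only [pow_succ, pow_zero, one_mul, mul_assoc]]
  replace wX := mul_mem wX wX
  generalize w * w = w at *
  refine A.nc _ (mul_mem wX wX) fun u hu => conj_eq_iff.1 ?_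
  obtain ⟨u', -, e⟩ := h.ofO A (mul_mem (inv_mem hu) (conjO A (A.XN wX) hu))
  obtain ⟨u, hu', rfl⟩ := h.ofO A hu
  obtain ⟨v, hv, f⟩ := h.cent_A (γ := u') fun p hp => conj_eq_iff.1 (by
    have b1 := a4 _ ⟨p, pauli_mem_Np.2 hp, rfl⟩
    have b2 := a4 _ ⟨_, pauli_mem_Np.2 (even_smul hu'.1 hp), rfl⟩
    rw [MonoidHom.comp_apply] at b1 b2
    rw [← rho_conj] at b2
    calc _ = (ρ u)⁻¹ * (w * (ρ u * (w⁻¹ * ρ (pauli p) * w) * (ρ u)⁻¹) * w⁻¹) * ρ u := by rw [e]; group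
      _ = _ := by rw [show w⁻¹ * ρ (pauli p) * w = ρ (pauli p) by nth_rw 1 [← b1]; group, b2]; group)
  have b := a4 _ ⟨v, (DG_RT (R2_le hv)).1, rfl⟩
  rw [MonoidHom.comp_apply] at b
  rw [e, inv_mul_eq_iff_eq_mul] at f
  calc _ = w * (w * ρ u * w⁻¹) * w⁻¹ := by group
    _ = _ := by rw [f, conj_mul_conj, f, b, mul_assoc, rho_pauli_mul, R2_sq hv, map_one, map_one, mul_one]

theorem mv {g : Γ} (hg : g ∈ N) (n : g ∉ C) :
    (g * ρ (pauli xc) * g⁻¹ = ρ (pauli Y0) ∨ g * ρ (pauli xc) * g⁻¹ = ρ (pauli (Z 11))) ∧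
      ∀ p, ρ (pauli p) ∈ cj[g] (QQ ρ) ↔ p ∈ DG := by
  obtain ⟨p, hp, np⟩ := h.exists_out A hg n
  obtain ⟨u, hu, e⟩ := h.ofO A (conjO A hg (h.memO (pauli_RT hp)))
  obtain ⟨k, ⟨k1, k2⟩, k3⟩ := AS_le_of (K := ((cj[g] (QQ ρ)).comap ρ ⊓ Np).map pr) (by
      rintro σ _ ⟨k, hk, rfl⟩
      obtain ⟨c, hc, e⟩ := exists_C0 σ
      have m := C0_le_Np hc
      exact ⟨c * k * c⁻¹, ⟨by simpa using h.conj_P A hg m hk.1, Np.mul_mem (Np.mul_mem m hk.2) (Np.inv_mem m)⟩,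
        by simp [e, pm]⟩) (mk_AS.2 hu.2) ⟨u, ⟨mem_comap.2 (e ▸ conj_mem_cj g (pauli_mem_QQ ρ p)), hu.1⟩, rfl⟩
    (fun k => let ⟨q, f⟩ := h.exq.2 k; np ⟨q, f.symm.trans e⟩) (mk_AS.2 yE_RT.2)
  replace k3 := pr_eqv (δ := yE.val) k3
  replace k1 : ρ k ∈ cj[g] (QQ ρ) := k1
  have V : R2 ≤ (cj[g] (QQ ρ)).comap (ρ.comp pauli) := fun v hv => by
    obtain ⟨w, -, e⟩ := h.conj_V A (inv_mem hg) hv
    exact mem_cj.2 ⟨w, by simpa using e.symm⟩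
  have D := DG_le (fun p hp => show ρ _ ∈ cj[g] (QQ ρ) from rho_conj (ρ := ρ) pE.val p ▸ h.conj_P A hg pE_Np hp) V
    (mem_of_eqv (V xc_R2) ((k3 (X 1)).symm.mul (Eqv.refl _)) (by
      have := mul_mem k1 (h.conj_P A hg ((pauli_mem_Np (p := X 1)).2 (by decide)) (inv_mem k1))
      rwa [← mul_assoc, ← mul_assoc, rho_conj, ← map_inv, ← map_inv, rho_pauli_mul] at this))
  have m : g * ρ (pauli xc) * g⁻¹ = ρ (pauli Y0) ∨ g * ρ (pauli xc) * g⁻¹ = ρ (pauli (Z 11)) := by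
    have := cj_comm k1 (D (show Z 0 ∈ DG from rfl))
    rw [MonoidHom.comp_apply, rho_conj, h.inj, ← mul_inv_eq_iff_eq_mul (a := ρ _), ← map_inv, ← map_inv,
      rho_pauli_mul] at this
    rcases (k3 (Z 0)).cases with e | e <;> rw [e, yE_Z0] at this
    · exact .inl ((this.resolve_left (by decide +kernel)).symm.trans (by rw [mul_inv_cancel_right]))
    · exact .inr ((this.resolve_left (by decide +kernel)).symm.trans (congrArg _ (congrArg _ (by decide +kernel))))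
  refine ⟨m, fun p => ⟨fun hp => funext fun k => ?_, fun hp => D hp⟩⟩
  have := cj_comm hp (D (show Z k ∈ DG from rfl))
  rw [MonoidHom.comp_apply, rho_conj, h.inj, pauli_smul_eq_iff, bf_Z'] at this
  refine this.elim id fun e => ?_
  rcases m with m | m <;> rw [m, rho_pauli_mul, h.inj, pauli_smul', mul_left_inj] at e <;>
    exact absurd (congrArg (·.b 11) e) (by simp [Y0, Z])

theorem ofz {g : Γ} (hg : g ∈ N) (e : g * ρ (pauli xc) * g⁻¹ = ρ (pauli xc)) : g ∈ C := by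
  by_contra n
  rcases (h.mv A hg n).1 with k | k <;> exact absurd (h.inj.1 (e.symm.trans k)) (by decide +kernel)

theorem exists_rot : ∃ r ∈ X', r * ρ (pauli xc) * r⁻¹ = ρ (pauli Y0) ∧
    r * ρ (pauli (Z 11)) * r⁻¹ = ρ (pauli xc) := by
  have o1 : ρ (pauli (X 11)) * ρ (pauli xc) * (ρ (pauli (X 11)))⁻¹ = ρ (pauli xc) := by rw [rho_conj, smul_xc]
  have o2 : ρ (pauli (X 11)) * ρ (pauli (Z 11)) * (ρ (pauli (X 11)))⁻¹ = ρ (pauli Y0) := by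
    rw [rho_conj, X11_Z11]; rfl
  obtain ⟨g, hg, e⟩ : ∃ g ∈ X', g * ρ (pauli xc) * g⁻¹ = ρ (pauli Y0) := by
    rcases (h.mv A (A.XN A.tX) A.tC).1 with k | k
    exacts [⟨t, A.tX, k⟩, ⟨_, mul_mem h.oX A.tX, by rw [← o2, ← k]; group⟩]
  obtain ⟨w, hw, f⟩ := h.conj_V A (A.XN hg) Z11_R2
  rcases hw with rfl | rfl | rfl | rfl
  · rw [map_one, map_one, conj_eq_one_iff, ← map_one ρ, ← map_one pauli, h.inj] at f
    exact absurd f (by decide +kernel)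
  · exact ⟨g, hg, e, f⟩
  · rw [← e, mul_left_inj, mul_right_inj, h.inj] at f
    exact absurd f (by decide +kernel)
  · refine ⟨_, mul_mem hg h.oX, by rw [← e]; nth_rw 2 [← o1]; group, ?_⟩
    calc _ = g * ρ (pauli (xc * Z 11)) * g⁻¹ := by rw [← Y0, ← o2]; group
      _ = _ := by
        rw [← rho_pauli_mul, conj_mul_conj, e, f, rho_pauli_mul]; exact congrArg _ (congrArg _ (by decide +kernel))

theorem ed {g : Γ} (hg : g ∈ X') : Ed ρ g := by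
  have c : ∀ g ∈ X', g * ρ (pauli xc) * g⁻¹ = ρ (pauli xc) → Ed ρ g := fun g hg e => by
    obtain ⟨γ, rfl⟩ := h.ex (h.ofz A (A.XN hg) e)
    have k : ∀ u ∈ RT, Ed ρ (ρ u) := fun u hu p hp => (RT_smul hu hp).imp fun v => And.imp_right fun e => by
      rw [rho_conj, e]
    have m := (h.eX γ).1 hg
    rcases mem_Np_or (Sg_le m) with n | n
    · exact k γ ⟨n, m⟩
    · simpa [← mul_assoc, Rels0.oo] using ed_odd.mul (k _ ⟨n, show gOf _ ∈ Sg by simpa [gOf_pauli] using m⟩)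
  obtain ⟨r, hr, r1, r2⟩ := h.exists_rot A
  have nr : r ∉ C := fun k => by
    obtain ⟨γ, rfl⟩ := h.ex k
    rw [rho_conj, smul_xc, h.inj] at r1
    exact absurd r1 (by decide +kernel)
  set o := ρ (pauli (X 11)) with ho
  have o2 : o * ρ (pauli (Z 11)) * o⁻¹ = ρ (pauli Y0) := by rw [rho_conj, X11_Z11]; rfl
  have e1 : Ed ρ (r * o * r⁻¹) := fun p hp => by
    rcases cj_comm (conj_mem_cj r (pauli_mem_QQ ρ (X 11))) (((h.mv A (A.XN hr) nr).2 p).2 hp) with e | e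
    exacts [⟨1, one_mem _, by rw [e, one_mul]⟩, ⟨_, Y0_R2, by rw [e, r1, rho_pauli_mul]⟩]
  have oX := mul_mem h.oX ((mem_normalizer_iff.1 (A.nX (A.XN hr)) _).1 h.oX)
  have k : ∀ {r g}, r ∈ X' → Ed ρ r → r * ρ (pauli xc) * r⁻¹ = ρ (pauli Y0) → g ∈ X' →
      g * ρ (pauli xc) * g⁻¹ = ρ (pauli Y0) → Ed ρ g := fun {r g} a b d e f => by
    simpa using b.mul (c (r⁻¹ * g) (mul_mem (inv_mem a) e) (by
      rw [mul_inv_rev, mul_assoc r⁻¹, mul_assoc r⁻¹, ← mul_assoc _ g⁻¹, f, ← d]; group))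
  have er : Ed ρ r := k oX (ed_odd.mul e1) (by
    calc _ = o * (r * (o * ρ (pauli (Z 11)) * o⁻¹) * r⁻¹) * o⁻¹ := by rw [← r2, ← ho]; group
      _ = _ := by
        rw [o2, Y0, ← rho_pauli_mul, conj_mul_conj r, r1, r2, rho_pauli_mul,
          show Y0 * xc = Z 11 by decide +kernel, o2, rho_pauli_mul]; rfl) hr r1
  by_cases n : g ∈ C
  · obtain ⟨γ, rfl⟩ := h.ex n
    exact c _ hg (by rw [rho_conj, smul_xc])
  · rcases (h.mv A (A.XN hg) n).1 with e | e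
    · exact k hr er r1 hg e
    · simpa [ho, ← mul_assoc, Rels0.oo] using ed_odd.mul (k hr er r1 (mul_mem h.oX hg) (by rw [← o2, ← e, ← ho]; group))

theorem kap : ρ kap = 1 := by
  classical
  refine h.kp.resolve_right fun hn => ?_
  have hx : hOf (pauli xc) k1 = -k1 := by rw [hOf_pauli, PE_apply, pauliF_xc]
  have kn : ∀ γ, ρ γ = 1 → hOf γ = 1 := fun γ e => by
    have k : ρ Mon.kap = ρ (pauli xc) := by rw [Mon.kap, map_mul, hn, one_mul]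
    rcases cent_Q (γ := γ) fun p => by rw [h.smul_eq (e.trans (map_one ρ).symm), one_smul]
      with a | a | a | a <;> rw [a] at e ⊢
    exacts [map_one _, (h.x_ne e).elim, (h.x_ne (k ▸ e)).elim, negG_eq ▸ hOf_negG]
  let F : Subgroup Γ := ((stabilizer Op k1).comap hOf).map ρ
  have mF : ∀ u, ρ u ∈ F ↔ hOf u k1 = k1 := fun u => ⟨fun ⟨w, a, b⟩ => by
    have := kn (w⁻¹ * u) (by rw [map_mul, map_inv, b, inv_mul_cancel])
    rw [map_mul, map_inv, inv_mul_eq_one] at this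
    exact this ▸ a, fun a => ⟨u, a, rfl⟩⟩
  obtain ⟨r, hr, r1, r2⟩ := h.exists_rot A
  have nr : r ∉ C := fun k => by
    obtain ⟨γ, rfl⟩ := h.ex k
    rw [rho_conj, smul_xc, h.inj] at r1
    exact absurd r1 (by decide +kernel)
  have ex : ∀ p : Lab, p.a 11 = 0 → ∃ u, r * ρ (pauli p) * r⁻¹ = ρ u ∧ (hOf u k1 = k1 ∨ hOf u k1 = -k1) :=
    fun p hp => by
      obtain ⟨u, hu, e⟩ := h.ofO A (conjO A (A.XN hr) (h.memO (pauli_RT hp)))
      refine ⟨u, e.symm, eig hu.1 fun q hq => ?_⟩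
      have := cj_comm (conj_mem_cj r (pauli_mem_QQ ρ p)) (((h.mv A (A.XN hr) nr).2 q).2 hq)
      rwa [← e, r1, rho_conj, rho_pauli_mul, h.inj, h.inj] at this
  have n1 : -k1 ≠ k1 := (ket_ne_neg _).symm
  obtain ⟨q, hq⟩ := exists_bf_char (R := Np.comap pauli) (pauli_mem_Np.2 rfl)
    (fun p => if r * ρ (pauli p) * r⁻¹ ∈ F then 0 else 1) (fun p hp q hq => by
      obtain ⟨u, a, b⟩ := ex p (pauli_mem_Np.1 hp)
      obtain ⟨w, c, d⟩ := ex q (pauli_mem_Np.1 hq)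
      rw [← rho_pauli_mul, conj_mul_conj r]
      simp only [a, c, ← map_mul ρ, mF, map_mul hOf, LinearEquiv.mul_apply]
      rcases b with b | b <;> rcases d with d | d <;> simp [b, d, n1, z2_add_self])
    (if_pos (by
      rw [r1, mF, hOf_pauli, PE_k1 (R2_le Y0_R2), show Y0.s + Y0.b 11 = 0 by decide]; simp))
  refine no_odd_lab (p := q) (by
    rw [← bf_Z', hq _ (pauli_mem_Np.2 rfl), r2, mF, hx, if_neg n1]; decide) fun σ => ?_
  obtain ⟨c, hc, ec⟩ := exists_C0 σ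
  have hc' := C0_le_Np hc
  obtain ⟨u, hu, eu⟩ := h.conj_N A (inv_mem hr) hc'
  have m := mul_mem hu.1 hc'
  refine ⟨u * c, m, ?_, (u * c) • q * q⁻¹, R2_of_bf fun p hp => ?_, by simp⟩
  · rw [← npPerm_C0 hc ec, ← one_mul (npPerm ⟨c, _⟩), ← (mem_Sg' (Np_mon hu.1)).1 hu.2]
    exact map_mul npPerm ⟨u, hu.1⟩ ⟨c, hc'⟩
  · have cF : ρ c ∈ F := ⟨c, hc.2.2, rfl⟩
    rw [bf_mul, (inv_eqv q).bf (Eqv.refl p), ← smul_inv_smul (u * c) p, bf_smul, smul_inv_smul,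
      hq _ (pauli_mem_Np.2 hp), hq _ (pauli_mem_Np.2 (even_smul (inv_mem m) hp)), ← rho_conj, map_inv, ← eu,
      show r * ((r⁻¹ * ρ c * r⁻¹⁻¹)⁻¹ * ρ (pauli p) * (r⁻¹ * ρ c * r⁻¹⁻¹)⁻¹⁻¹) * r⁻¹ =
        (ρ c)⁻¹ * (r * ρ (pauli p) * r⁻¹) * ρ c by group]
    simp only [mul_mem_cancel_right cF, mul_mem_cancel_left (inv_mem cF), z2_add_self]

end St

end CF.MonA
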