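import Cfsg.Agent.MonA.D

/-! The triality element and the third subgroup of the amalgam. -/

set_option autoImplicit false
set_option maxHeartbeats 400000
set_option maxRecDepth 100000

namespace CF.MonA

open Cfsg Subgroup CF.Leech CF.Mon CF.Mon.L CF.Mon.Lab CF.Known.Mon MulAction CF.LX CF.Loc
open CF.Mon.G hiding AS
open CF.Even Function Spor CF.MonU
open CF.XT.Co hiding a v M F σ N0 k1 S
open scoped commutatorElement Pointwise

variable {Γ Γ' : Type*} [Group Γ] [Group Γ'] {ρ : Gt →* Γ} {ρ' : Gt →* Γ'} {τ : Γ} {τ' : Γ'}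
  {C N L N0 X' : Subgroup Γ} {t a : Γ}

theorem act_nmD (A : Act ρ ρ' τ τ') (h : Rc ρ C) (S : Rels0 ρ τ) (R : Rels0 ρ' τ') :
    Nm ρ ρ' DT (τ * ρ aE.val) (τ' * ρ' aE.val) := by
  refine Nm.mul (fun n hn => ?_) (Nm.rho aE_DT)
  obtain ⟨m, hm, e, f⟩ := A.nm R n hn.1
  refine ⟨m, ⟨hm, (rho_comm_iff h.x_ne).1 (mul_right_cancel (b := τ) ?_)⟩, e, f⟩
  rw [mul_assoc, ← S.c0 _ fL_C0, ← mul_assoc, ← e, mul_assoc, (rho_comm_iff h.x_ne).2 hn.2,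
    ← mul_assoc, S.c0 _ fL_C0, mul_assoc, e, mul_assoc]

theorem act_rel (A : Act ρ ρ' τ τ') (h : Rc ρ C) (S : Rels0 ρ τ) (R : Rels ρ' τ')
    (hx' : ρ' (pauli xc) ≠ 1) (hc : (τ * ρ aE.val) ^ 3 * ρ (pauli xc) = ρ (pauli xc) * (τ * ρ aE.val) ^ 3 →
      (τ * ρ aE.val) ^ 3 ∈ C) : (τ * ρ aE.val) ^ 3 = 1 := by
  have tr := trans_of S.kap R.kap hx'
  have N := act_nmD A h S R.zero
  set s := τ * ρ aE.val with hs
  set s' := τ' * ρ' aE.val with hs'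
  have N3 := N.mul (N.mul N)
  rw [← pow_three, ← pow_three, R.rel] at N3
  have cm := fun n => N3.comm tr (n := n)
  have dg : ∀ p ∈ DG, pauli p ∈ DT := fun p hp => mem_DT.2 ⟨by
    rw [pauli_smul, DG_comm hp (R2_le Z11_R2), mul_inv_cancel_right], by
    rw [pauli_smul, DG_comm hp (show fL ∈ DG by change _ = _; decide +kernel),
      mul_inv_cancel_right]⟩
  obtain ⟨γ, e⟩ := h.ex (hc (cm _ (dg _ (R2_le xc_R2))))
  obtain ⟨q, hq, e⟩ : ∃ q ∈ DG, s ^ 3 = ρ (pauli q) := by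
    obtain ⟨q, hq, a | a⟩ := of_fix_DG (γ := γ) fun p hp =>
      (rho_comm_iff h.x_ne).1 (by rw [e]; exact cm _ (dg p hp))
    exacts [⟨q, hq, by rw [← e, a]⟩, ⟨q, hq, by rw [← e, a, map_mul, S.kap, one_mul]⟩]
  obtain ⟨i, j, l, rfl⟩ := of_fix_DT hq fun p hp => (rho_comm_iff h.x_ne).1 (by rw [← e]; exact cm _ hp)
  have sx : s * ρ (pauli xc) = ρ (pauli Y0) * s := by
    rw [hs, mul_assoc, (rho_comm_iff h.x_ne).2 (smul_xc _), ← mul_assoc, S.tau_x, mul_assoc]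
  have sf : s * ρ (pauli fL) = ρ (pauli fL) * s := by
    rw [hs, mul_assoc, (rho_comm_iff h.x_ne).2 aE_f, ← mul_assoc, S.c0 _ fL_C0, mul_assoc]
  have sz : s * ρ (pauli (Z 11)) = ρ (pauli (xc * fL)) * s := by
    rw [hs, mul_assoc, ← map_mul, conj_pauli, aE_Z, map_mul, ← mul_assoc, map_mul pauli,
      rl_mul S.tau_z (S.c0 _ fL_C0), mul_assoc, map_mul pauli]
  have sm : ∀ {p q p' q' : Lab}, s * ρ (pauli p) = ρ (pauli p') * s →
      s * ρ (pauli q) = ρ (pauli q') * s → s * ρ (pauli (p * q)) = ρ (pauli (p' * q')) * s :=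
    fun a b => by rw [← rho_pauli_mul, ← rho_pauli_mul, ← mul_assoc, a, mul_assoc, b, mul_assoc]
  have no : ∀ p p' : Lab, s * ρ (pauli p) = ρ (pauli p') * s → p ≠ p' → s ^ 3 ≠ ρ (pauli p) :=
    fun p p' a b c => b (h.inj.1 (mul_right_cancel (b := s) (by
      rw [← a, ← c, ← pow_succ, ← pow_succ'])))
  have cs : ∀ i j l : ZMod 2, ∀ q : Lab,
      q = ⟨0, fun k => if k.1 < 4 then i else if k = 11 then j else 0, l⟩ → q = 1 ∨ q = fL ∨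
      q = xc ∨ q = Z 11 ∨ q = xc * fL ∨ q = xc * Z 11 ∨ q = Z 11 * fL ∨ q = xc * (Z 11 * fL) := by
    rintro i j l _ rfl; revert i j l; decide +kernel
  rcases cs i j l _ rfl with c | c | c | c | c | c | c | c <;> rw [c] at e
  · simpa using e
  · exfalso
    obtain ⟨n1, h1, a1, b1⟩ := A.nm R.zero _ bG_Np
    obtain ⟨n2, h2, a2, b2⟩ := A.nm R.zero _ (Np.mul_mem bG_Np h1)
    obtain ⟨n3, h3, a3, b3⟩ := A.nm R.zero _ (Np.mul_mem bG_Np h2)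
    obtain ⟨m, -, a4, b4⟩ := (N.mul N) _ wG_DT
    have e4 : ρ n3 = ρ m := tr _ _ (by
      have : s' * s' = s'⁻¹ := by rw [eq_inv_iff_mul_eq_one, ← pow_three', R.rel]
      rw [← cube_of R.zero b1 b2 b3, tau_bG R.zero, ← mul_inv_eq_iff_eq_mul.2 b4, ← hs', R.rel, this]
      simp only [map_mul, pow_three]; group)
    have : (s ^ 3 * ρ wG) ^ 3 = ρ (wG * (wG * wG)) := by
      have c := cm _ wG_DT
      rw [← cube_of S a1 a2 a3, tau_bG S, ← mul_inv_eq_iff_eq_mul.2 a4, ← hs] at e4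
      calc _ = s * (s⁻¹ * (s ^ 3 * ρ wG) * s) ^ 3 * s⁻¹ := by simp only [pow_three]; group
        _ = s ^ 3 * ρ (wG * (wG * wG)) * (s ^ 3)⁻¹ := by rw [e4]; simp only [pow_three]; group
        _ = _ := by rw [c, mul_inv_cancel_right]
    rw [e, ← map_mul, ← map_pow, wG_cube, map_mul, mul_eq_right] at this
    exact h.x_ne this
  · exact absurd e (no _ _ sx (by decide +kernel))
  · exact absurd e (no _ _ sz (by decide +kernel))
  · exact absurd e (no _ _ (sm sx sf) (by decide +kernel))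
  · exact absurd e (no _ _ (sm sx sz) (by decide +kernel))
  · exact absurd e (no _ _ (sm sz sf) (by decide +kernel))
  · exact absurd e (no _ _ (sm sx (sm sz sf)) (by decide +kernel))

/-- coordinates on the sextet group -/
def e3 (v : Fin 3 → ZMod 2) : Lab := ⟨0, fun k => if k.1 < 4 then v 2 else if k = 11 then v 1 else 0, v 0⟩

theorem e3_add : ∀ u v, e3 (u + v) = e3 u * e3 v := by decide +kernel

/-- the sextet group -/
def R3 : Subgroup Lab where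
  carrier := {p | ∃ v, e3 v = p}
  mul_mem' := fun ⟨u, a⟩ ⟨v, b⟩ => ⟨u + v, by rw [e3_add, a, b]⟩
  one_mem' := ⟨0, by decide +kernel⟩
  inv_mem' := fun ⟨u, a⟩ => ⟨u, a ▸ (by decide +kernel : ∀ u, e3 u = (e3 u)⁻¹) u⟩

theorem R2_R3 : R2 ≤ R3 := by
  rintro _ (rfl | rfl | rfl | rfl) <;> change ∃ v, e3 v = _ <;> decide +kernel

theorem fL_R3 : fL ∈ R3 := by change ∃ v, e3 v = _; decide +kernel

theorem R3_le {R : Subgroup Lab} (h1 : xc ∈ R) (h2 : Z 11 ∈ R) (h3 : fL ∈ R) : R3 ≤ R := by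
  rintro _ ⟨v, rfl⟩
  refine ind2 (P := fun v => e3 v ∈ R) ((by decide +kernel : e3 0 = 1) ▸ one_mem R)
    (fun u v a b => e3_add u v ▸ mul_mem a b) (fun i => ?_) v
  rcases (by decide +kernel : ∀ i, e3 (Pi.single i 1) = xc ∨ e3 (Pi.single i 1) = Z 11 ∨
    e3 (Pi.single i 1) = fL) i with e | e | e <;> rwa [e]

theorem not_short_Z : ¬ Short (Z 11) := fun ⟨x, a, b⟩ =>
  red_ne_of_nm (x := x) (y := e8 none) (by omega) (nm_e8 _).le (by rw [a, nm_e8]; decide)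
    (cls_eqv_iff_red.1 (b.symm.trans (cls_e8 none ▸ Eqv.refl _)))

theorem not_R2 {α : Gt} (h : gOf α ∉ Mon) : α • Z 11 ∉ R2 := by
  have e : ∀ q : Lab, α • q ≈ₗ 1 → q ≈ₗ 1 := fun q k => by simpa using k.smul α⁻¹
  rintro (k | k | k | k)
  exacts [absurd (e (Z 11) (by rw [k]; exact Eqv.refl _)) (by decide +kernel),
    absurd (e (Z 11) (by rw [k]; exact ⟨rfl, rfl⟩)) (by decide +kernel),
    h (smul_Z11_iff.1 (by rw [k]; exact xc_eqv _)), h (smul_Z11_iff.1 (by rw [k]; exact Eqv.refl _))]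

namespace St
variable (h : St ρ C N N0 X') (B : Ab C N L N0 X' t a)
include h B

theorem cent_Np {g : Γ} (hg : g ∈ N) (e : ∀ n ∈ Np, g * ρ n = ρ n * g) : ∃ v ∈ R2, g = ρ (pauli v) := by
  obtain ⟨γ, rfl⟩ := h.ex (h.ofz B hg (conj_eq_iff.2 (e _ (pauli_mem_Np.2 rfl))))
  exact h.cent_A fun p hp => e _ (pauli_mem_Np.2 hp)

theorem exists_act (R : Rels0 ρ' τ') (hx' : ρ' (pauli xc) ≠ 1) : ∃ τ ∈ N, Act ρ ρ' τ τ' := by
  classical
  obtain ⟨t, ht, tx, tz⟩ := h.exists_rot B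
  let θ : Gt → Gt := fun n => if k : ∃ m, τ' * ρ' n = ρ' m * τ' then k.choose else 1
  have sp : ∀ n m, τ' * ρ' n = ρ' m * τ' → ρ (θ n) = ρ m := fun n m e => by
    have k : ∃ m, τ' * ρ' n = ρ' m * τ' := ⟨m, e⟩
    simp only [θ, dif_pos k]
    exact trans_of (h.kap B) R.kap hx' _ _ (mul_right_cancel (k.choose_spec.symm.trans e))
  have A : Au ρ fun n => t⁻¹ * ρ (θ n) * t := ⟨fun a ha b hb => by
      obtain ⟨c, -, e⟩ := R.theta_exists ha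
      obtain ⟨d, -, f⟩ := R.theta_exists hb
      rw [sp _ _ (rl_mul e f), sp _ _ e, sp _ _ f, map_mul]; group,
    by rw [sp _ 1 (by simp [R.kap])]; simp, fun n hn => by
      obtain ⟨u, hu, e⟩ := th_RT R hn
      obtain ⟨w, hw, f⟩ := h.conj_N B (inv_mem ht) (mul_mem hu.1 hn)
      exact ⟨w * u, mul_mem hw hu, by rw [sp _ _ e, mul_assoc w, ← f, inv_inv]⟩, fun p hp => by
      obtain ⟨v, hv, e⟩ := th_DG R hp
      obtain ⟨w, hw, f⟩ := h.ed B (inv_mem ht) _ (mul_mem (R2_le hv) hp)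
      exact ⟨w * v, mul_mem hw hv, by rw [sp _ _ e, mul_assoc w, ← f, inv_inv]⟩, by
      rintro _ (rfl | rfl | rfl | rfl)
      · rw [sp _ 1 (by simp)]; simp
      · rw [sp _ _ R.tau_x, ← tx]; group
      · have : t * ρ (pauli Y0) * t⁻¹ = ρ (pauli (Z 11)) := by
          rw [show Y0 = xc * Z 11 from rfl, ← rho_pauli_mul]
          calc _ = t * ρ (pauli xc) * t⁻¹ * (t * ρ (pauli (Z 11)) * t⁻¹) := by group
            _ = _ := by rw [tx, tz, rho_pauli_mul]; exact congrArg _ (congrArg _ (by decide +kernel))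
        rw [sp _ _ R.tau_y, ← this]; group
      · rw [sp _ _ R.tau_z, ← tz]; group⟩
  obtain ⟨r, hr, e⟩ := au_inner (h.kap B) h.x_ne A
  refine ⟨t * ρ r, mul_mem (B.XN ht) ((h.eN r).2 (Np_mon hr.1)), fun n hn m k => ?_⟩
  have := e n hn
  rw [sp _ _ k] at this
  calc _ = t * (ρ r * ρ n * (ρ r)⁻¹) * ρ r := by group
    _ = _ := by rw [← this]; group

theorem cube (A : Act ρ ρ' τ τ') (m : τ ∈ N) (R : Rels0 ρ' τ') (hx' : ρ' (pauli xc) ≠ 1) : τ ^ 3 = 1 := by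
  have k := h.kap B
  have N' := (A.nm R).mul ((A.nm R).mul (A.nm R))
  rw [← pow_three, ← pow_three, R.cube] at N'
  obtain ⟨v, hv, e⟩ := h.cent_Np B (pow_mem m 3) fun n => N'.comm (trans_of k R.kap hx')
  have c : τ * ρ (pauli v) = ρ (pauli v) * τ := by rw [← e, ← pow_succ, ← pow_succ']
  rcases hv with rfl | rfl | rfl | rfl
  · simpa using e
  · rw [A _ (pauli_mem_Np.2 rfl) _ R.tau_x, mul_left_inj, h.inj] at c
    exact absurd c (by decide +kernel)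
  · rw [A _ (pauli_mem_Np.2 rfl) _ R.tau_y, mul_left_inj, h.inj] at c
    exact absurd c (by decide +kernel)
  · rw [A _ (pauli_mem_Np.2 rfl) _ R.tau_z, mul_left_inj, h.inj] at c
    exact absurd c (by decide +kernel)

theorem exists_rels0 (A : Act ρ ρ' τ τ') (m : τ ∈ N) (R : Rels0 ρ' τ')
    (hx' : ρ' (pauli xc) ≠ 1) : ∃ τ ∈ N, Rels0 ρ τ ∧ Act ρ ρ' τ τ' := by
  have k := h.kap B
  have q : ∀ p, ρ (pauli p) ∈ N := fun p => (h.eN _).2 Mon.one_mem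
  have fin : ∀ τ ∈ N, Act ρ ρ' τ τ' → τ * ρ (pauli (X 11)) * (τ * ρ (pauli (X 11))) = 1 →
      Rels0 ρ τ ∧ Act ρ ρ' τ τ' := fun τ m A e =>
    ⟨⟨k, h.cube B A m R hx', fun p hp => A p (C0_le_Np hp) p (R.c0 p hp), by
      rw [← mul_assoc, mul_eq_one_iff_eq_inv, ← map_inv, ← map_inv,
        inv_eq_of_mul_eq_one_right (X_mul_X 11)] at e
      exact e, A _ (pauli_mem_Np.2 (by decide)) _ R.xy⟩, A⟩
  have N1 := (A.nm R).mul (Nm.rho (a := pauli (X 11)) fun n hn => by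
    rw [← map_inv, inv_eq_of_mul_eq_one_right (X_mul_X 11)]; exact odd_conj_Np hn)
  have N2 := N1.mul N1
  rw [← mul_assoc (τ' * _), R.odd, Rels0.oo] at N2
  obtain ⟨v, hv, e⟩ := h.cent_Np B (mul_mem (mul_mem m (q _)) (mul_mem m (q _))) fun n => N2.comm (trans_of k R.kap hx')
  have c : τ * ρ (pauli (X 11)) * ρ (pauli v) = ρ (pauli v) * (τ * ρ (pauli (X 11))) := by
    rw [← e]; simp only [mul_assoc]
  have ox : ρ (pauli (X 11)) * ρ (pauli xc) = ρ (pauli xc) * ρ (pauli (X 11)) := by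
    rw [rho_pauli_mul, rho_pauli_mul, xc_comm]
  have oz : ρ (pauli (X 11)) * ρ (pauli Y0) = ρ (pauli (Z 11)) * ρ (pauli (X 11)) := by
    rw [rho_pauli_mul, rho_pauli_mul]; exact congrArg _ (congrArg _ (by decide +kernel))
  have tx := A _ (pauli_mem_Np.2 rfl) _ R.tau_x
  rcases hv with rfl | rfl | rfl | rfl
  · exact ⟨τ, m, fin τ m A (by simpa using e)⟩
  · rw [mul_assoc, ox, ← mul_assoc, tx, mul_assoc, mul_left_inj, h.inj] at c
    exact absurd c (by decide +kernel)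
  · rw [mul_assoc, oz, ← mul_assoc, A _ (pauli_mem_Np.2 rfl) _ R.tau_z, mul_assoc, mul_left_inj,
      h.inj] at c
    exact absurd c (by decide +kernel)
  · refine ⟨_, mul_mem (q xc) m, fin (ρ (pauli xc) * τ) (mul_mem (q xc) m) (fun n hn m f => ?_) ?_⟩
    · rw [mul_assoc, A n hn m f, ← mul_assoc, ← mul_assoc, (rho_comm_iff h.x_ne).2 (smul_xc m)]
    · calc _ = ρ (pauli xc) * (τ * (ρ (pauli (X 11)) * ρ (pauli xc))) * (τ * ρ (pauli (X 11))) := by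
            simp only [mul_assoc]
        _ = ρ (pauli xc) * ρ (pauli Y0) * (τ * ρ (pauli (X 11)) * (τ * ρ (pauli (X 11)))) := by
            rw [ox, ← mul_assoc τ, tx]; simp only [mul_assoc]
        _ = 1 := by
            rw [e, rho_pauli_mul, rho_pauli_mul, show xc * Y0 * Z 11 = 1 by decide +kernel, map_one,
              map_one]

theorem Lz {l : Γ} (hl : l ∈ L) (e : l * ρ (pauli xc) = ρ (pauli xc) * l) : l ∈ C :=
  (max_rel (H := 𝐂₁(ρ (pauli xc))) (by norm_num) B.iC fun g hg => by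
    obtain ⟨γ, rfl⟩ := h.ex hg.2
    exact mem_c1.2 (rho_comm_iff' γ)).resolve_right
    (fun k => B.tC (h.ofz B (B.XN B.tX) (conj_eq_iff.2 (mem_c1.1 (k B.tL))))) ⟨hl, mem_c1.2 e⟩

theorem orb_Z : ∃ l ∈ L, l * ρ (pauli xc) * l⁻¹ = ρ (pauli (Z 11)) ∧ ∃ l ∈ L, l * ρ (pauli xc) * l⁻¹ = ρ (pauli Y0) := by
  have t2 : t⁻¹ * t⁻¹ = t := by rw [← mul_inv_rev, inv_eq_iff_mul_eq_one, ← pow_three', B.t3]
  have k : ∀ g, t * ρ (pauli xc) * t⁻¹ = g → t⁻¹ * ρ (pauli xc) * t⁻¹⁻¹ ≠ g := fun g a b =>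
    B.tC (h.ofz B (B.XN B.tX) (by
      calc _ = t⁻¹ * t⁻¹ * ρ (pauli xc) * (t⁻¹ * t⁻¹)⁻¹ := by rw [t2]
        _ = t⁻¹ * (t⁻¹ * ρ (pauli xc) * t⁻¹⁻¹) * t := by simp only [mul_inv_rev, inv_inv, mul_assoc]
        _ = _ := by rw [b, ← a]; group))
  rcases (h.mv B (B.XN B.tX) B.tC).1 with e | e <;>
    rcases (h.mv B (inv_mem (B.XN B.tX)) (mt inv_mem_iff.1 B.tC)).1 with f | f
  exacts [absurd f (k _ e), ⟨_, inv_mem B.tL, f, t, B.tL, e⟩, ⟨t, B.tL, e, _, inv_mem B.tL, f⟩, absurd f (k _ e)]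

theorem orb {α : Gt} (e : ρ α = a) {l : Γ} (hl : l ∈ L) : ∃ p, l * ρ (pauli xc) * l⁻¹ = ρ (pauli p) ∧
    (p ∈ R2 ∨ p ≈ₗ α • Z 11 ∨ p ≈ₗ α • α • Z 11) := by
  classical
  let φ : L ⧸ C.subgroupOf L → Γ := Quotient.lift (fun l : L => l * ρ (pauli xc) * (l : Γ)⁻¹) fun x y k => by
    have k' : x⁻¹ * y ∈ C.subgroupOf L := QuotientGroup.leftRel_apply.1 k
    obtain ⟨γ, e⟩ := h.ex (mem_subgroupOf.1 k')
    rw [show (y : Γ) = x * ρ γ by rw [e]; simp, mul_assoc _ (ρ γ), rho_comm_iff']; group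
  haveI : Finite (L ⧸ C.subgroupOf L) := Nat.finite_of_card_ne_zero (B.iC.trans_ne (by decide))
  have m : ∀ l ∈ L, l * ρ (pauli xc) * l⁻¹ ∈ Set.range φ := fun l hl => ⟨QuotientGroup.mk ⟨l, hl⟩, rfl⟩
  have ma : ∀ p, ρ (pauli p) ∈ Set.range φ → ρ (pauli (α • p)) ∈ Set.range φ := fun p ⟨x, k⟩ => by
    obtain ⟨x, rfl⟩ := QuotientGroup.mk_surjective x
    rw [← rho_conj, ← k, e]
    exact ⟨QuotientGroup.mk (⟨a, B.aL⟩ * x), by simp [φ, mul_assoc]⟩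
  obtain ⟨l1, a1, b1, l2, a2, b2⟩ := h.orb_Z B
  have z1 := b1 ▸ m l1 a1
  have z2 := b2 ▸ m l2 a2
  have n1 : gOf α ∉ Mon := fun k => B.aN (e ▸ (h.eN α).2 k)
  have n2 : gOf (α * α) ∉ Mon := fun k => B.a2 (by rw [← e, ← map_mul]; exact (h.eN _).2 k)
  have ne : ∀ {p q : Lab}, ¬ p ≈ₗ q → p ≠ q ∧ p ≠ xc * q ∧ xc * p ≠ q := fun k =>
    ⟨fun e => k (e ▸ Eqv.refl _), fun e => k (e ▸ xc_eqv _), fun e => k (e ▸ (xc_eqv _).symm)⟩
  have c1 := not_R2 n1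
  have c2 := not_R2 n2
  rw [mul_smul] at c2
  have d0 := ne (p := xc) (q := Z 11) (by decide +kernel)
  have d1 := ne fun k : xc ≈ₗ _ => c1 (mem_of_eqv xc_R2 k.symm xc_R2)
  have d2 := ne fun k : xc ≈ₗ _ => c2 (mem_of_eqv xc_R2 k.symm xc_R2)
  have d3 := ne fun k : Z 11 ≈ₗ _ => c1 (mem_of_eqv xc_R2 k.symm Z11_R2)
  have d4 := ne fun k : Z 11 ≈ₗ _ => c2 (mem_of_eqv xc_R2 k.symm Z11_R2)
  have d5 := ne fun k : α • Z 11 ≈ₗ α • α • Z 11 => n1 (smul_Z11_iff.1 (by simpa using (k.smul α⁻¹).symm))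
  let F : List Lab := [xc, Z 11, xc * Z 11, α • Z 11, xc * α • Z 11, α • α • Z 11, xc * α • α • Z 11]
  have nd : F.Nodup := by simp [F, d0, d1, d2, d3, d4, d5, xc_ne_one]
  have := Set.eq_of_subset_of_ncard_le (s := (ρ.comp pauli) '' F.toFinset) (t := Set.range φ) (by
    rintro _ ⟨p, hp, rfl⟩
    simp only [F, List.coe_toFinset, Set.mem_setOf_eq, List.mem_cons, List.not_mem_nil, or_false] at hp
    rcases hp with rfl | rfl | rfl | rfl | rfl | rfl | rfl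
    exacts [by simpa using m 1 (one_mem _), z1, z2, ma _ z1, smul_xc_mul α _ ▸ ma _ z2, ma _ (ma _ z1),
      smul_xc_mul α _ ▸ smul_xc_mul α _ ▸ ma _ (ma _ z2)]) (by
    rw [Set.ncard_image_of_injective _ (rho_pauli_injective h.x_ne), Set.ncard_coe_finset,
      List.toFinset_card_of_nodup nd, ← Set.image_univ]
    exact (Set.ncard_image_le).trans (by rw [Set.ncard_univ]; exact B.iC.le))
  obtain ⟨p, hp, k⟩ := this.ge (m l hl)
  refine ⟨p, k.symm, ?_⟩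
  simp only [F, List.coe_toFinset, Set.mem_setOf_eq, List.mem_cons, List.not_mem_nil, or_false] at hp
  rcases hp with rfl | rfl | rfl | rfl | rfl | rfl | rfl
  exacts [.inl xc_R2, .inl Z11_R2, .inl Y0_R2, .inr (.inl (Eqv.refl _)), .inr (.inl (xc_eqv _)),
    .inr (.inr (Eqv.refl _)), .inr (.inr (xc_eqv _))]

theorem f_DG {α : Gt} (e : ρ α = a) : α • Z 11 ∈ DG := by
  obtain ⟨l, a1, b1, -⟩ := h.orb_Z B
  obtain ⟨p, k, -⟩ := h.orb B e (mul_mem (mul_mem (inv_mem B.tL) B.aL) a1)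
  refine ((h.mv B (B.XN B.tX) B.tC).2 _).1 (mem_cj.2 ⟨p, ?_⟩)
  rw [← rho_conj, e, ← b1, MonoidHom.comp_apply, ← k]; group

theorem exists_std : ∃ ρ' : Gt →* Γ, St ρ' C N N0 X' ∧ ∃ α, ρ' α = a ∧ ∃ v ∈ R2, α • Z 11 = v * fL := by
  obtain ⟨α, e⟩ := h.ex B.aC
  obtain ⟨n, hn, k⟩ := sextet (h.f_DG B e) (not_R2 fun k => B.aN (e ▸ (h.eN α).2 k))
    fun k => not_short_Z (by simpa using k.smul α⁻¹)
  exact ⟨_, h.twist (inv_mem hn), n * α * n⁻¹, by simp [mul_assoc, e], by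
    rwa [mul_smul, mul_smul, mem_Np.1 (inv_mem hn)]⟩

omit h B in
theorem norm_W {g : Γ} (h1 : g * ρ (pauli xc) * g⁻¹ ∈ EE ρ R3) (h2 : g * ρ (pauli (Z 11)) * g⁻¹ ∈ EE ρ R3)
    (h3 : g * ρ (pauli fL) * g⁻¹ ∈ EE ρ R3) : g ∈ 𝐍(EE ρ R3) := by
  haveI : Finite (EE ρ R3) := Finite.of_surjective _ ((ρ.comp pauli).subgroupMap_surjective _)
  refine mem_normalizer_fintype ?_
  rintro _ ⟨p, hp, rfl⟩
  exact R3_le (R := (EE ρ R3).comap ((MulAut.conj g).toMonoidHom.comp (ρ.comp pauli))) h1 h2 h3 hp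

variable {α : Gt} (e : ρ α = a) {v : Lab} (hv : v ∈ R2) (f : α • Z 11 = v * fL)
include e hv f

theorem L_W : L ≤ 𝐍(EE ρ R3) := by
  have n1 := not_R2 fun k => B.aN (e ▸ (h.eN α).2 k)
  obtain ⟨l1, a1, b1, l2, a2, b2⟩ := h.orb_Z B
  have m : α • Z 11 ∈ R3 := f ▸ mul_mem (R2_R3 hv) fL_R3
  obtain ⟨l, a, p, b, c⟩ : ∃ l ∈ L, ∃ p, l * ρ (pauli xc) * l⁻¹ = ρ (pauli p) ∧ p ≈ₗ Z 11 * α • Z 11 := by
    obtain ⟨w, hw, k⟩ := h.ed B B.tX _ (h.f_DG B e)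
    have k1 : t * a * l1 * ρ (pauli xc) * (t * a * l1)⁻¹ = ρ (pauli (w * α • Z 11)) := by
      rw [← k, ← rho_conj, e, ← b1]; group
    have k2 : t * a * l2 * ρ (pauli xc) * (t * a * l2)⁻¹ = t * ρ (pauli xc) * t⁻¹ * ρ (pauli (w * α • Z 11)) := by
      rw [← k, ← conj_mul_conj, rho_pauli_mul, ← smul_xc_mul, ← rho_conj, e, ← Y0, ← b2]; group
    by_cases c : w ≈ₗ Z 11
    · exact ⟨_, mul_mem (mul_mem B.tL B.aL) a1, _, k1, c.mul (Eqv.refl _)⟩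
    · refine ⟨_, mul_mem (mul_mem B.tL B.aL) a2, ?_⟩
      have c' : w ≈ₗ 1 := by rcases hw with rfl | rfl | rfl | rfl <;> revert c <;> decide +kernel
      rcases (h.mv B (B.XN B.tX) B.tC).1 with y | y <;> rw [y, rho_pauli_mul] at k2
      exacts [⟨_, k2, (xc_eqv _).mul (by simpa using c'.mul (Eqv.refl _))⟩,
        ⟨_, k2, (Eqv.refl _).mul (by simpa using c'.mul (Eqv.refl _))⟩]
  have x3 := R2_R3 xc_R2
  have m2 : α • α • Z 11 ∈ R3 := by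
    obtain ⟨q, k, d⟩ := h.orb B e a
    obtain rfl := h.inj.1 (b.symm.trans k)
    rcases d with d | d | d
    · exact absurd ((mul_mem_cancel_left Z11_R2).1 (mem_of_eqv xc_R2 c.symm d)) n1
    · exact absurd (by simpa using (c.symm.trans d).mul (Eqv.refl (α • Z 11)⁻¹) : Z 11 ≈ₗ 1) (by decide +kernel)
    · exact mem_of_eqv x3 (d.symm.trans c) (mul_mem (R2_R3 Z11_R2) m)
  have o : ∀ l ∈ L, l * ρ (pauli xc) * l⁻¹ ∈ EE ρ R3 := fun l hl => by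
    obtain ⟨q, k, d⟩ := h.orb B e hl
    exact ⟨q, d.elim (fun d => R2_R3 d) fun d => d.elim (mem_of_eqv x3 · m) (mem_of_eqv x3 · m2), k.symm⟩
  intro l hl
  have o1 := o _ (mul_mem hl a1)
  have o2 := o _ (mul_mem hl a2)
  have o3 := o _ (mul_mem (mul_mem hl B.aL) a1)
  rw [show ∀ k, l * k * ρ (pauli xc) * (l * k)⁻¹ = l * (k * ρ (pauli xc) * k⁻¹) * l⁻¹ from fun k => by group]
    at o1 o2
  rw [show l * _ * l1 * ρ (pauli xc) * _ = l * (ρ α * (l1 * ρ (pauli xc) * l1⁻¹) * (ρ α)⁻¹) * l⁻¹ by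
    rw [e]; group, b1, rho_conj, f, ← rho_pauli_mul, conj_mul_conj] at o3
  rw [b1] at o1
  rw [b2] at o2
  refine norm_W (o l hl) o1 ((mul_mem_cancel_left ?_).1 o3)
  rcases hv with rfl | rfl | rfl | rfl
  exacts [by simp, o l hl, o2, o1]

theorem exists_l {g : Γ} (hg : g ∈ 𝐍(EE ρ R3)) : ∃ l ∈ L, l⁻¹ * g ∈ 𝐂(EE ρ R3) := by
  obtain ⟨φ, hφ⟩ := exists_lin (f := fun v => ρ (pauli (e3 v))) (E := EE ρ R3)
    (fun u v => by rw [e3_add, rho_pauli_mul])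
    (fun u v k => (by decide +kernel : ∀ u v, e3 u = e3 v → u = v) u v (h.inj.1 k))
    fun g => ⟨fun ⟨_, ⟨v, a⟩, b⟩ => ⟨v, a ▸ b⟩, fun ⟨v, a⟩ => ⟨_, ⟨v, rfl⟩, a⟩⟩
  have k : ∀ g, φ g = 1 → g.1 ∈ 𝐂(EE ρ R3) := by
    rintro g k _ ⟨_, ⟨v, rfl⟩, rfl⟩
    have := hφ g v
    rw [k] at this
    exact (conj_eq_iff.1 this.symm).symm
  let ψ := φ.comp (inclusion (h.L_W B e hv f))
  have c : Nat.card ((Fin 3 → ZMod 2) ≃ₗ[ZMod 2] (Fin 3 → ZMod 2)) = 168 := by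
    rw [← Nat.card_congr (Matrix.GeneralLinearGroup.toLin.trans
      (LinearMap.GeneralLinearGroup.generalLinearEquiv _ _)).toEquiv, Matrix.card_GL_field]
    decide
  haveI := Nat.finite_of_card_ne_zero (c.trans_ne (by decide))
  have := B.big (ψ.ker.map L.subtype) (by
    rintro _ ⟨l, hl, rfl⟩
    exact ⟨l.2, h.Lz B l.2 (k _ hl _ ⟨xc, R2_R3 xc_R2, rfl⟩).symm⟩) (le_normalizer_map_subtype _)
  rw [relIndex, subgroupOf, comap_map_eq_self_of_injective (subtype_injective L), index_ker, ← c] at this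
  obtain ⟨l, a⟩ := (eq_top_of_le_card _ this).ge (mem_top (φ ⟨g, hg⟩))
  have := k ((inclusion (h.L_W B e hv f) l)⁻¹ * ⟨g, hg⟩) (by rw [map_mul, map_inv, ← a]; simp [ψ])
  exact ⟨l, l.2, this⟩

theorem exists_rels : ∃ τ ∈ N, Rels ρ τ := by
  obtain ⟨τ, m, A⟩ := h.exists_act B relsM.zero x_neM
  obtain ⟨τ, m, S, A⟩ := h.exists_rels0 B A m relsM.zero x_neM
  refine ⟨τ, m, S.kap, S.cube, S.c0, S.odd, S.xy, act_rel A h.toRc S relsM x_neM fun c => ?_⟩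
  have xW : ρ (pauli xc) ∈ EE ρ R3 := ⟨xc, R2_R3 xc_R2, rfl⟩
  have eD : N ⊓ 𝐂(EE ρ R3) = C ⊓ 𝐂(EE ρ R3) := le_antisymm
    (fun g hg => ⟨h.ofz B hg.1 (conj_eq_iff.2 (hg.2 _ xW).symm), hg.2⟩) fun g hg => ⟨by
      obtain ⟨γ, rfl⟩ := h.ex hg.1
      exact (h.eN γ).2 (Np_mon ((rho_comm_iff h.x_ne).1 (hg.2 _ ⟨Y0, R2_R3 Y0_R2, rfl⟩).symm)), hg.2⟩
  have nD : ∀ {H : Subgroup Γ} {g : Γ}, g ∈ L → g ∈ H → g ∈ 𝐍(H ⊓ 𝐂(EE ρ R3)) := fun a b =>
    cj_eq_self_iff.1 (by rw [cj_inf, cj_centralizer, cj_eq_self (h.L_W B e hv f a), cj_eq_self_of_mem b])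
  have LD : L ≤ 𝐍(C ⊓ 𝐂(EE ρ R3)) := (max_rel (by norm_num) B.iC fun g hg => nD hg.1 hg.2).resolve_left
    fun k => B.tC (k ⟨B.tL, eD ▸ nD B.tL (B.XN B.tX)⟩)
  haveI : Finite (EE ρ R2) := Finite.of_surjective _ ((ρ.comp pauli).subgroupMap_surjective _)
  have NV : N ≤ 𝐍(EE ρ R2) := fun g hg => mem_normalizer_fintype (by
    rintro _ ⟨p, hp, rfl⟩
    obtain ⟨w, a, b⟩ := h.conj_V B hg hp
    exact ⟨w, a, b.symm⟩)
  have LV : L ⊓ 𝐍(EE ρ R2) ≤ N := (max_rel (by norm_num) B.iL (inf_le_right.trans NV)).resolve_right fun k => by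
    obtain ⟨p, a, b⟩ := (mem_normalizer_iff.1 (k B.aL) _).1 ⟨_, Z11_R2, rfl⟩
    rw [← e, MonoidHom.comp_apply, MonoidHom.comp_apply, rho_conj, h.inj] at b
    exact not_R2 (fun k => B.aN (e ▸ (h.eN α).2 k)) (b ▸ a)
  have m1 : τ ∈ L ⊔ (C ⊓ 𝐂(EE ρ R3)) := by
    obtain ⟨l, a, b⟩ := h.exists_l B e hv f (norm_W (g := τ)
      ⟨_, R2_R3 Y0_R2, (mul_inv_eq_iff_eq_mul.2 S.tau_x).symm⟩
      ⟨_, R2_R3 xc_R2, (mul_inv_eq_iff_eq_mul.2 S.tau_z).symm⟩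
      ⟨_, fL_R3, (mul_inv_eq_iff_eq_mul.2 (S.c0 _ fL_C0)).symm⟩)
    have : l ∈ N := LV ⟨a, by
      simpa using mul_mem (NV m) (inv_mem (centralizer_le_normalizer _
        (centralizer_le (map_mono R2_R3 : EE ρ R2 ≤ EE ρ R3) b)))⟩
    simpa using mul_mem (mem_sup_left a) (mem_sup_right (eD.le ⟨N.mul_mem (N.inv_mem this) m, b⟩))
  have m2 : ρ aE.val ∈ L ⊔ (C ⊓ 𝐂(EE ρ R3)) := by
    obtain ⟨l, a, b⟩ := h.exists_l B e hv f (norm_W (g := ρ aE.val)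
      ⟨_, R2_R3 xc_R2, by rw [rho_conj, smul_xc]; rfl⟩
      ⟨_, mul_mem (R2_R3 Z11_R2) fL_R3, by rw [rho_conj, aE_Z]; rfl⟩ ⟨_, fL_R3, by rw [rho_conj, aE_f]; rfl⟩)
    have : l⁻¹ ∈ C := h.Lz B (inv_mem a) (mul_right_cancel (b := ρ aE.val) (by
      rw [mul_assoc, ← rho_comm_iff', ← mul_assoc, ← b _ xW, mul_assoc]))
    simpa using mul_mem (mem_sup_left a) (mem_sup_right (T := C ⊓ 𝐂(EE ρ R3)) ⟨C.mul_mem this (h.mem _), b⟩)
  obtain ⟨l, a, d, b, k⟩ := (Solv.mem_sup_of_le_normalizer LD).1 (pow_mem (mul_mem m1 m2) 3)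
  rw [← k] at c ⊢
  exact mul_mem (h.Lz B a (mul_right_cancel (b := d) (by rw [mul_assoc, b.2 _ xW, ← mul_assoc, c, mul_assoc]))) b.1

end St

theorem Rc.main (h : Rc ρ C) (B : Ab C N L N0 X' t a) (gen : C ⊔ N ⊔ L = ⊤) : IsoM Γ := by
  obtain ⟨ρ, h⟩ := h.exists_St B
  obtain ⟨ρ, h, α, e, v, hv, f⟩ := h.exists_std B
  obtain ⟨τ, m, R⟩ := h.exists_rels B e hv f
  have n : τ ∉ C := fun k => by
    obtain ⟨γ, rfl⟩ := h.ex k
    exact absurd (h.inj.1 (mul_right_cancel ((rho_comm_iff' γ).symm.trans R.zero.tau_x))) (by decide +kernel)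
  have a : N ≤ C ⊔ zpowers τ := (max_rel Nat.prime_three B.iN (inf_le_right.trans le_sup_left)).resolve_left
    fun k => n (k ⟨m, mem_sup_right (mem_zpowers τ)⟩)
  have b : L ≤ C ⊔ zpowers τ := (max_rel (by norm_num) B.iC (inf_le_right.trans le_sup_left)).resolve_left
    fun k => B.tC (k ⟨B.tL, a (B.XN B.tX)⟩)
  exact certs.equivM (certs.c.out R h.x_ne (by
    rw [h.rg, eq_top_iff, ← gen]; exact sup_le (sup_le le_sup_left a) b))

end CF.MonA
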